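import Cfsg.Agent.G2Inv.Pairs
import Cfsg.Agent.Linear.Orders

/-!
The centralizer of the standard involution in `G₂(q)`, `q` odd.
-/

set_option autoImplicit false

namespace Cfsg.Agent.G2Inv

open Cfsg.Lie Cfsg.Agent.ChevGrp
open scoped MatrixGroups

variable {F : Type*} [Field F]

theorem zEl_conj {s : ℕ} (hs : s < 12) (t : F) :
    zEl F * (sys F).x s t * (zEl F)⁻¹ = (sys F).x s (if fixedRoots.contains s then t else -t) := by
  rw [zEl, hpair_conj (neg_ne_zero.2 one_ne_zero) one_ne_zero (show s < chevG2.nroots from hs), chi,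
    one_zpow, mul_one]
  have : ∀ r < 12, if fixedRoots.contains r then chevG2.cartan 0 r % 2 = 0 else chevG2.cartan 0 r % 2 = 1 := by
    decide +kernel
  have h := this s hs
  by_cases hf : fixedRoots.contains s
  · rw [if_pos hf] at h ⊢
    rw [Even.neg_one_zpow (Int.even_iff.2 h), one_mul]
  · rw [if_neg hf] at h ⊢
    rw [Odd.neg_one_zpow (Int.odd_iff.2 h), neg_one_mul]

theorem mem_pair_of_fixed (h2 : (2 : F) ≠ 0) {u : GL chevG2.Idx F} (hu : u ∈ (sys F).Ubar)
    (hz : zEl F * u * (zEl F)⁻¹ = u) : u ∈ (sys F).US {7, 11} := by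
  obtain ⟨len, hR⟩ := (rules F).root
  obtain ⟨L, hL⟩ := hR.posSet_closed.exists_enum
  obtain ⟨t, rfl⟩ := (sys F).exists_coef hR hR.posSet_closed hL hu
  have hlt : ∀ r ∈ L, r < chevG2.nroots := fun r hr => ((hL.2 r).1 hr).1
  have e : ∀ M : List ℕ, (∀ r ∈ M, r < chevG2.nroots) → zEl F * (sys F).P M t * (zEl F)⁻¹ =
      (sys F).P M (fun r => if fixedRoots.contains r then t r else -t r) := by
    intro M hM
    induction M with
    | nil => simp [Sys.P_nil]
    | cons r M ih =>
      rw [Sys.P_cons, Sys.P_cons, ← ih fun a ha => hM a (List.mem_cons_of_mem _ ha),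
        ← zEl_conj (hM r List.mem_cons_self) (t r)]
      group
  rw [e L hlt] at hz
  have hco := (sys F).coef_unique hR hR.posSet_closed hL (congrArg (sys F).θ hz)
  refine (sys F).P_mem hlt fun r hr h0 => ?_
  have hp : chevG2.IsPosRoot r := (hL.2 r).1 hr
  by_cases hf : fixedRoots.contains r
  · have key : ∀ s < 12, chevG2.IsPosRoot s → fixedRoots.contains s = true → s = 7 ∨ s = 11 := by
      decide +kernel
    rcases key r hp.1 hp hf with rfl | rfl <;> simp
  · exfalso
    have := hco r hp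
    simp only [hf] at this
    exact h0 ((mul_eq_zero.1 (show (2 : F) * t r = 0 by
      simp at this; linear_combination -this)).resolve_left h2)

theorem zEl_mem : zEl F ∈ (sys F).Hbar := hpair_mem (neg_ne_zero.2 one_ne_zero) one_ne_zero

theorem act_fixed_of_commute {n : GL chevG2.Idx F} {w : List (Fin chevG2.rank)} (h2 : (2 : F) ≠ 0)
    (hc : (sys F).ConjP n w) (hz : n * zEl F * n⁻¹ = zEl F) :
    ∀ s < 12, fixedRoots.contains (act chevG2 w s) = fixedRoots.contains s := by
  obtain ⟨len, hR⟩ := (rules F).root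
  obtain ⟨c, hcc, hnc⟩ := hc
  intro s hs
  have hw : act chevG2 w s < 12 := hR.act_lt w hs
  have hc0 : c s ≠ 0 := right_ne_zero_of_mul_eq_one (hcc s hs)
  have e1 := zEl_conj hw (c s * 1)
  have e2 : zEl F * (sys F).x (act chevG2 w s) (c s * 1) * (zEl F)⁻¹ =
      (sys F).x (act chevG2 w s) (c s * if fixedRoots.contains s then 1 else -1) := by
    rw [← hnc s hs, ← hnc s hs, ← zEl_conj hs 1]
    calc zEl F * (n * (sys F).x s 1 * n⁻¹) * (zEl F)⁻¹
        = (n * zEl F * n⁻¹) * (n * (sys F).x s 1 * n⁻¹) * (n * zEl F * n⁻¹)⁻¹ := by rw [hz]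
      _ = _ := by group
  have e3 := x_param_inj hw (e1.symm.trans e2)
  have hne : c s ≠ -c s := fun e => hc0 ((mul_eq_zero.1 (show (2 : F) * c s = 0 by
    linear_combination e)).resolve_left h2)
  rw [mul_one] at e3
  cases h1 : fixedRoots.contains (act chevG2 w s) <;> cases h3 : fixedRoots.contains s
  · rfl
  · rw [h1, h3, if_pos rfl, if_neg Bool.false_ne_true, mul_one] at e3
    exact absurd e3.symm hne
  · rw [h1, h3, if_pos rfl, if_neg Bool.false_ne_true, mul_neg, mul_one] at e3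
    exact absurd e3 hne
  · rfl

namespace RootPair

variable {φ ψ : SL(2, F) →* GL chevG2.Idx F}

theorem short_x (P : RootPair φ ψ) (t : F) : (sys F).x 7 t ∈ φ.range := ⟨_, P.short.upper t⟩

theorem long_x (P : RootPair φ ψ) (t : F) : (sys F).x 11 t ∈ ψ.range := ⟨_, P.long.upper t⟩

theorem pair_le (P : RootPair φ ψ) : (sys F).US {7, 11} ≤ φ.range ⊔ ψ.range := by
  rw [Sys.US, Subgroup.closure_le]
  rintro _ ⟨r, hr, t, rfl⟩
  rcases hr with rfl | rfl
  · exact Subgroup.mem_sup_left (P.short_x t)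
  · exact Subgroup.mem_sup_right (P.long_x t)

theorem Hbar_conj (P : RootPair φ ψ) {h : GL chevG2.Idx F} (hh : h ∈ (sys F).Hbar) :
    ∀ l ∈ φ.range ⊔ ψ.range, h * l * h⁻¹ ∈ φ.range ⊔ ψ.range := by
  obtain ⟨len, hR⟩ := (rules F).root
  obtain ⟨a, -, ha⟩ := (sys F).conjP_Hbar (rules F) hR hh
  have : φ.range ⊔ ψ.range ≤ (φ.range ⊔ ψ.range).comap (MulAut.conj h).toMonoidHom := by
    have key : ∀ r : ℕ, r < chevG2.nroots → (sys F).US {r} ≤ φ.range ⊔ ψ.range →
        (sys F).US {r} ≤ (φ.range ⊔ ψ.range).comap (MulAut.conj h).toMonoidHom := by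
      intro r hr hle
      conv_lhs => rw [Sys.US]
      rw [Subgroup.closure_le]
      rintro _ ⟨r', rfl, t, rfl⟩
      rw [SetLike.mem_coe, Subgroup.mem_comap, MulEquiv.coe_toMonoidHom, MulAut.conj_apply, ha r' hr t, act_nil]
      exact hle ((sys F).x_mem_US (T := {r'}) (Set.mem_singleton r') (a r' * t))
    conv_lhs => rw [P.short.range, P.long.range, neg_seven, neg_eleven]
    refine sup_le (sup_le (key 7 (by decide) ?_) (key 4 (by decide) ?_))
      (sup_le (key 11 (by decide) ?_) (key 0 (by decide) ?_)) <;>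
      rw [P.short.range, P.long.range, neg_seven, neg_eleven]
    · exact le_sup_left.trans le_sup_left
    · exact le_sup_right.trans le_sup_left
    · exact le_sup_left.trans le_sup_right
    · exact le_sup_right.trans le_sup_right
  intro l hl
  have h9 := Subgroup.mem_comap.1 (this hl)
  rwa [MulEquiv.coe_toMonoidHom, MulAut.conj_apply] at h9

theorem dia_short (P : RootPair φ ψ) (a : F) : φ (diaT a) = hpair a 1 := by
  rw [P.short.dia, hEl_seven]

theorem dia_long (P : RootPair φ ψ) {a : F} (ha : a ≠ 0) : ψ (diaT a) = hpair a (a ^ 2) := by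
  rw [P.long.dia, hEl_eleven ha]

theorem zEl_mem_short (P : RootPair φ ψ) : zEl F ∈ φ.range := ⟨_, P.dia_short (-1)⟩

theorem zEl_mem_long (P : RootPair φ ψ) : zEl F ∈ ψ.range :=
  ⟨diaT (-1), by rw [P.dia_long (neg_ne_zero.2 one_ne_zero), zEl]; norm_num⟩

theorem range_commutes_zEl (P : RootPair φ ψ) : ∀ l ∈ φ.range ⊔ ψ.range, l * zEl F = zEl F * l := by
  have : φ.range ⊔ ψ.range ≤ Subgroup.centralizer {zEl F} := by
    refine sup_le ?_ ?_
    · rintro _ ⟨A, rfl⟩
      obtain ⟨B, hB⟩ := P.zEl_mem_long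
      rw [← hB]
      exact Subgroup.mem_centralizer_singleton_iff.2 (P.commute A B).eq
    · rintro _ ⟨B, rfl⟩
      obtain ⟨A, hA⟩ := P.zEl_mem_short
      rw [← hA]
      exact Subgroup.mem_centralizer_singleton_iff.2 (P.commute A B).eq.symm
  exact fun l hl => Subgroup.mem_centralizer_singleton_iff.1 (this hl)

theorem range_le_Gbar (P : RootPair φ ψ) : φ.range ⊔ ψ.range ≤ (sys F).Gbar := by
  rw [P.short.range, P.long.range, neg_seven, neg_eleven]
  have key : ∀ r : ℕ, r < 12 → (sys F).US {r} ≤ (sys F).Gbar := by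
    intro r hr
    rw [Sys.US, Subgroup.closure_le]
    rintro _ ⟨r', rfl, t, rfl⟩
    exact x_mem_Gbar hr t
  exact sup_le (sup_le (key 7 (by norm_num)) (key 4 (by norm_num)))
    (sup_le (key 11 (by norm_num)) (key 0 (by norm_num)))

theorem nI_zero_mem (P : RootPair φ ψ) : (sys F).nI i0 ∈ φ.range :=
  ⟨monT 1, by rw [P.short.mon, Sys.nI, simple_zero]⟩

theorem nEl_eleven_mem (P : RootPair φ ψ) (t : F) : (sys F).nEl 11 t ∈ ψ.range := ⟨_, P.long.mon t⟩

theorem weyl_mem (P : RootPair φ ψ) {w : List (Fin chevG2.rank)}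
    (hw : ∀ s < 12, fixedRoots.contains (act chevG2 w s) = fixedRoots.contains s) :
    (sys F).nW w ∈ (φ.range ⊔ ψ.range) ⊔ (sys F).Hbar := by
  obtain ⟨len, hR⟩ := (rules F).root
  obtain ⟨v, hv, e⟩ := exists_rep w
  have hcw := (sys F).conjP_nW (rules F) hR w
  have hNw := (sys F).nW_mem_Nbar w
  -- comparison with an element of the same action
  have cmp : ∀ (n : GL chevG2.Idx F) (u : List (Fin chevG2.rank)), n ∈ (sys F).Nbar →
      n ∈ φ.range ⊔ ψ.range → (sys F).ConjP n u → (∀ s < 12, act chevG2 v s = act chevG2 u s) →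
      (sys F).nW w ∈ (φ.range ⊔ ψ.range) ⊔ (sys F).Hbar := by
    intro n u hnN hnL hcn hu
    obtain ⟨k, hk, e1⟩ := eq_of_act hNw (conjP_congr hcw fun s hs => (e s hs).trans (hu s hs))
    obtain ⟨k', hk', e2⟩ := eq_of_act hnN hcn
    have : (sys F).nW w = (k * k'⁻¹) * n := by rw [e1, e2]; group
    rw [this]
    exact mul_mem (Subgroup.mem_sup_right (mul_mem hk (inv_mem hk'))) (Subgroup.mem_sup_left hnL)
  obtain ⟨l, hl, hgl⟩ := exists_scale (F := F)
  set n11 := (sys F).nEl 11 (l * 1) with hn11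
  have hc11 : (sys F).ConjP n11 ([i1, i0] ++ [i1] ++ [i0, i1]) := by
    have h := ((conjP_ten (F := F)).mul hR ((sys F).conjP_nI (rules F) hR i1)).mul hR
      (Sys.ConjP.inv hR (conjP_ten (F := F)))
    rw [Sys.nI, simple_one, hgl, show ([i1, i0] : List (Fin chevG2.rank)).reverse = [i0, i1] from rfl] at h
    exact h
  have hN11 : n11 ∈ (sys F).Nbar := (sys F).nEl_mem_Nbar (rules F) hR (by decide) (by simpa using hl)
  have hL11 : n11 ∈ φ.range ⊔ ψ.range := Subgroup.mem_sup_right (P.nEl_eleven_mem _)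
  rcases reps_stab v hv (fun s hs => by rw [← e s hs]; exact hw s hs) with h | h | h | h
  · exact cmp 1 [] (one_mem _) (one_mem _) (sys F).conjP_one h
  · exact cmp _ _ ((sys F).nI_mem_Nbar i0) (Subgroup.mem_sup_left P.nI_zero_mem)
      ((sys F).conjP_nI (rules F) hR i0) h
  · exact cmp _ _ hN11 hL11 hc11 h
  · exact cmp _ _ (mul_mem ((sys F).nI_mem_Nbar i0) hN11)
      (mul_mem (Subgroup.mem_sup_left P.nI_zero_mem) hL11)
      (((sys F).conjP_nI (rules F) hR i0).mul hR hc11) h

theorem centralizer_eq (P : RootPair φ ψ) (h2 : (2 : F) ≠ 0) :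
    (sys F).Gbar ⊓ Subgroup.centralizer {zEl F} = (φ.range ⊔ ψ.range) ⊔ (sys F).Hbar := by
  obtain ⟨len, hR⟩ := (rules F).root
  have hM := glSys_HMul (rules F) hR
  have hcomm := (sys F).Hbar_comm (rules F) hR hM
  refine le_antisymm ?_ (sup_le (le_inf P.range_le_Gbar fun l hl => ?_) (le_inf ?_ fun k hk => ?_))
  · intro g hgz
    obtain ⟨hg, hz⟩ := Subgroup.mem_inf.1 hgz
    rw [Subgroup.mem_centralizer_singleton_iff] at hz
    obtain ⟨b, hb, w, -, v, hv, e⟩ := (sys F).mem_NF (rules F) hR hg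
    set z := zEl F with hzdef
    set n := (sys F).nW w with hn
    set k := z * (n * z⁻¹ * n⁻¹) with hk
    have hkH : k ∈ (sys F).Hbar :=
      mul_mem zEl_mem ((sys F).nW_conj_Hbar (rules F) hR w (inv_mem zEl_mem))
    have hzB := (sys F).Hbar_le_Bbar (zEl_mem (F := F))
    have hb' : z * b * z⁻¹ * k ∈ (sys F).Bbar :=
      mul_mem (mul_mem (mul_mem hzB hb) (inv_mem hzB)) ((sys F).Hbar_le_Bbar hkH)
    have hv' : z * v * z⁻¹ ∈ (sys F).US (invSet chevG2 w) :=
      (Subgroup.mem_normalizer_iff.1 ((sys F).Hbar_le_normalizer_US (rules F) hR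
        (fun r hr => hr.1.1) (zEl_mem (F := F))) v).1 hv
    have eq : b * n * v = z * b * z⁻¹ * k * n * (z * v * z⁻¹) := by
      calc b * n * v = z * (b * n * v) * z⁻¹ := by rw [← e, ← hz, mul_inv_cancel_right]
        _ = _ := by rw [hk]; group
    obtain ⟨eb, ev⟩ := ((sys F).bruhat_unique (rules F) hR hb hb' hv hv' eq).2 rfl
    obtain ⟨u, hu, h, hh, rfl⟩ := ((sys F).mem_Bbar (rules F) hR).1 hb
    have hzu : z * u * z⁻¹ ∈ (sys F).Ubar :=
      (Subgroup.mem_normalizer_iff.1 ((sys F).Hbar_le_normalizer_Ubar (rules F) hR (zEl_mem (F := F))) u).1 hu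
    have e2 : u * h = (z * u * z⁻¹) * (h * k) := by
      calc u * h = z * (u * h) * z⁻¹ * k := eb
        _ = (z * u * z⁻¹) * (z * h * z⁻¹) * k := by group
        _ = (z * u * z⁻¹) * h * k := by
          rw [show z * h * z⁻¹ = h by rw [hcomm z zEl_mem h hh, mul_inv_cancel_right]]
        _ = _ := mul_assoc _ _ _
    obtain ⟨eu, eh⟩ := (sys F).Bbar_decomp_unique (rules F) hR hu hzu hh (mul_mem hh hkH) e2
    have hk1 : k = 1 := mul_left_cancel (eh.symm.trans (mul_one h).symm)
    have hnz : n * z * n⁻¹ = z := by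
      rw [hk] at hk1
      have := eq_inv_of_mul_eq_one_right hk1
      calc n * z * n⁻¹ = (n * z⁻¹ * n⁻¹)⁻¹ := by group
        _ = z := by rw [this, inv_inv]
    have huL := P.pair_le (mem_pair_of_fixed h2 hu eu.symm)
    have hvL := P.pair_le (mem_pair_of_fixed h2 (((sys F).US_mono fun r h => h.1) hv) ev.symm)
    rw [e]
    exact mul_mem (mul_mem (mul_mem (Subgroup.mem_sup_left huL) (Subgroup.mem_sup_right hh))
      (P.weyl_mem (act_fixed_of_commute h2 ((sys F).conjP_nW (rules F) hR w) hnz)))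
      (Subgroup.mem_sup_left hvL)
  · exact Subgroup.mem_centralizer_singleton_iff.2 (P.range_commutes_zEl l hl)
  · exact (sys F).Hbar_le_Bbar.trans (by rw [(sys F).Gbar_eq hR (rules F)]; exact le_sup_left)
  · exact Subgroup.mem_centralizer_singleton_iff.2 (hcomm k hk _ zEl_mem)

end RootPair

end Cfsg.Agent.G2Inv
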