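import Cfsg.Agent.G2Inv.Cent
import Cfsg.Agent.Linear.Orders

/-!
The order and shape of the centralizer of the standard involution in `G₂(q)`, `q` odd.
-/

set_option autoImplicit false

namespace Cfsg.Agent.G2Inv

open Cfsg.Lie Cfsg.Agent.ChevGrp
open scoped MatrixGroups

variable {F : Type*} [Field F]

namespace RootPair

variable {φ ψ : SL(2, F) →* GL chevG2.Idx F}

theorem inf_eq_zpowers [Fintype F] (P : RootPair φ ψ) : φ.range ⊓ ψ.range = Subgroup.zpowers (zEl F) := by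
  refine le_antisymm ?_ ((Subgroup.zpowers_le).2 (Subgroup.mem_inf.2 ⟨P.zEl_mem_short, P.zEl_mem_long⟩))
  rintro _ ⟨⟨A, rfl⟩, B, hB⟩
  have hA : A ∈ Subgroup.center SL(2, F) := by
    rw [Subgroup.mem_center_iff]
    intro A'
    apply P.short_inj
    rw [map_mul, map_mul, ← hB]
    exact (P.commute A' B).eq
  obtain ⟨c, hc, he⟩ := Linear.Classes.scalar_SL (Linear.Classes.mem_center_iff_scalar.1 hA)
  rcases mul_self_eq_one_iff.1 (show c * c = 1 by linear_combination hc) with rfl | rfl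
  · rw [show A = 1 from Subtype.ext (by rw [he, one_smul, Matrix.SpecialLinearGroup.coe_one]), map_one]
    exact one_mem _
  · rw [show A = diaT (-1) from Subtype.ext (by
      rw [he, diaT_val (neg_ne_zero.2 one_ne_zero)]
      ext i j
      fin_cases i <;> fin_cases j <;> simp [inv_neg]), P.dia_short]
    exact Subgroup.mem_zpowers _

theorem hpair_mem_iff (P : RootPair φ ψ) {x y : F} (hx : x ≠ 0) (hy : y ≠ 0) :
    hpair x y ∈ φ.range ⊔ ψ.range ↔ IsSquare y := by
  constructor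
  · intro hm
    rw [← MonoidHom.noncommCoprod_range φ ψ P.commute] at hm
    obtain ⟨⟨A, B⟩, hAB⟩ := hm
    rw [MonoidHom.noncommCoprod_apply] at hAB
    simp only at hAB
    obtain ⟨a, ha, rfl⟩ : ∃ a, a ≠ 0 ∧ A = diaT a := by
      refine P.short.eq_diag P.short_inj (chi_ne_zero hx hy 7) (chi_ne_zero hx hy (chevG2.neg 7)) ?_ ?_
      · have e := hpair_conj hx hy (s := 7) (by decide) (1 : F)
        rw [mul_one, ← hAB, ← P.short.upper 1, mul_inv_rev] at e
        rw [← e, ← P.short.upper 1]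
        have := (P.commute (upperT 1) B).eq
        calc φ A * φ (upperT 1) * (φ A)⁻¹ = φ A * (φ (upperT 1) * ψ B) * (ψ B)⁻¹ * (φ A)⁻¹ := by group
          _ = _ := by rw [this]; group
      · have e := hpair_conj hx hy (s := chevG2.neg 7) (by decide +kernel) (1 : F)
        rw [mul_one, ← hAB, ← P.short.lower 1, mul_inv_rev] at e
        rw [← e, ← P.short.lower 1]
        have := (P.commute (lowerT 1) B).eq
        calc φ A * φ (lowerT 1) * (φ A)⁻¹ = φ A * (φ (lowerT 1) * ψ B) * (ψ B)⁻¹ * (φ A)⁻¹ := by group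
          _ = _ := by rw [this]; group
    rw [P.dia_short] at hAB
    have hB : ψ B = hpair (x / a) y := by
      refine mul_left_cancel (a := hpair a 1) ?_
      rw [hAB, hpair_mul ha one_ne_zero (div_ne_zero hx ha) hy, mul_div_cancel₀ _ ha, one_mul]
    obtain ⟨d, hd, rfl⟩ : ∃ d, d ≠ 0 ∧ B = diaT d := by
      refine P.long.eq_diag P.long_inj (chi_ne_zero (div_ne_zero hx ha) hy 11)
        (chi_ne_zero (div_ne_zero hx ha) hy (chevG2.neg 11)) ?_ ?_
      · rw [hB, hpair_conj (div_ne_zero hx ha) hy (by decide), mul_one]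
      · rw [hB, hpair_conj (div_ne_zero hx ha) hy (by decide +kernel), mul_one]
    rw [P.dia_long hd] at hB
    exact ⟨d, by rw [← (hpair_inj hd (pow_ne_zero 2 hd) (div_ne_zero hx ha) hy hB).2, sq]⟩
  · rintro ⟨d, rfl⟩
    have hd : d ≠ 0 := left_ne_zero_of_mul hy
    have h7 : hpair (x / d) 1 ∈ φ.range := ⟨_, P.dia_short (x / d)⟩
    have h8 : hpair d (d ^ 2) ∈ ψ.range := ⟨_, P.dia_long hd⟩
    have := mul_mem (Subgroup.mem_sup_left (T := ψ.range) h7) (Subgroup.mem_sup_right (S := φ.range) h8)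
    rwa [hpair_mul (div_ne_zero hx hd) one_ne_zero hd (pow_ne_zero 2 hd), div_mul_cancel₀ _ hd,
      one_mul, sq] at this

theorem relIndex_eq_two [Fintype F] (P : RootPair φ ψ) (h2 : (2 : F) ≠ 0) :
    (φ.range ⊔ ψ.range).relIndex ((φ.range ⊔ ψ.range) ⊔ (sys F).Hbar) = 2 := by
  have hF : ringChar F ≠ 2 := fun e => h2 (by
    have h0 : ((2 : ℕ) : F) = 0 := by rw [ringChar.spec, e]
    simpa using h0)
  obtain ⟨ν, hν⟩ := FiniteField.exists_nonsquare hF
  have hν0 : ν ≠ 0 := fun e => hν (e ▸ IsSquare.zero)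
  set L := φ.range ⊔ ψ.range with hL
  rw [Subgroup.relIndex_eq_two_iff]
  refine ⟨hpair 1 ν, Subgroup.mem_sup_right (hpair_mem one_ne_zero hν0), fun b hb => ?_⟩
  have hle : (sys F).Hbar ≤ Subgroup.normalizer (L : Set (GL chevG2.Idx F)) := by
    intro h hh
    rw [Subgroup.mem_normalizer_iff]
    refine fun l => ⟨P.Hbar_conj hh l, fun hl => ?_⟩
    simpa [mul_assoc] using P.Hbar_conj (inv_mem hh) _ hl
  have hb' : b ∈ ((L ⊔ (sys F).Hbar : Subgroup (GL chevG2.Idx F)) : Set (GL chevG2.Idx F)) := hb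
  rw [Subgroup.coe_mul_of_right_le_normalizer_left _ _ hle] at hb'
  obtain ⟨l, hl, h, hh, rfl⟩ := Set.mem_mul.1 hb'
  obtain ⟨x, y, hx, hy, rfl⟩ := exists_hpair hh
  have h1 : l * hpair x y ∈ L ↔ IsSquare y := by
    rw [L.mul_mem_cancel_left hl, P.hpair_mem_iff hx hy]
  have h3 : l * hpair x y * hpair 1 ν ∈ L ↔ IsSquare (y * ν) := by
    rw [mul_assoc, L.mul_mem_cancel_left hl, hpair_mul hx hy one_ne_zero hν0,
      P.hpair_mem_iff (mul_ne_zero hx one_ne_zero) (mul_ne_zero hy hν0)]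
  rw [h1, h3]
  by_cases hys : IsSquare y
  · refine Or.inr ⟨hys, fun hs => hν ?_⟩
    obtain ⟨s, hs⟩ := hs
    obtain ⟨d, rfl⟩ := hys
    exact ⟨s / d, by field_simp [left_ne_zero_of_mul hy]; linear_combination hs⟩
  · exact Or.inl ⟨Linear.Classes.isSquare_mul_of_nonsquare h2 hys hν, hys⟩

theorem card_mul_two [Fintype F] (P : RootPair φ ψ) (h2 : (2 : F) ≠ 0) :
    Nat.card ↥(φ.range ⊔ ψ.range) * 2 = Nat.card SL(2, F) ^ 2 := by
  set f := φ.noncommCoprod ψ P.commute with hf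
  have hz : (diaT (-1 : F) : SL(2, F)) ≠ 1 := fun e => h2 (by
    have := congrArg (fun g : SL(2, F) => (g : Matrix (Fin 2) (Fin 2) F) 0 0) e
    simp [diaT_val (neg_ne_zero.2 (one_ne_zero (α := F)))] at this
    linear_combination -this)
  have hzz : (diaT (-1 : F) : SL(2, F)) * diaT (-1) = 1 := Subtype.ext (by
    rw [Matrix.SpecialLinearGroup.coe_mul, diaT_val (neg_ne_zero.2 one_ne_zero),
      Matrix.SpecialLinearGroup.coe_one]
    ext i j
    fin_cases i <;> fin_cases j <;> simp [inv_neg])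
  have hzm : φ (diaT (-1 : F)) * ψ (diaT (-1)) = 1 := by
    rw [P.dia_short, P.dia_long (neg_ne_zero.2 one_ne_zero),
      hpair_mul (neg_ne_zero.2 one_ne_zero) one_ne_zero (neg_ne_zero.2 one_ne_zero)
        (pow_ne_zero 2 (neg_ne_zero.2 one_ne_zero))]
    norm_num [hpair_one]
  have hker : f.ker = Subgroup.zpowers ((diaT (-1 : F), diaT (-1)) : SL(2, F) × SL(2, F)) := by
    refine le_antisymm ?_ ((Subgroup.zpowers_le).2 (by rw [MonoidHom.mem_ker, hf, MonoidHom.noncommCoprod_apply]; exact hzm))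
    rintro ⟨A, B⟩ h
    rw [MonoidHom.mem_ker, hf, MonoidHom.noncommCoprod_apply] at h
    simp only at h
    have hm : φ A ∈ φ.range ⊓ ψ.range :=
      Subgroup.mem_inf.2 ⟨⟨A, rfl⟩, ⟨B⁻¹, by rw [map_inv]; exact (eq_inv_of_mul_eq_one_left h).symm⟩⟩
    rw [P.inf_eq_zpowers, Subgroup.mem_zpowers_iff] at hm
    obtain ⟨k, hk⟩ := hm
    refine Subgroup.mem_zpowers_iff.2 ⟨k, ?_⟩
    have hA : A = diaT (-1) ^ k := P.short_inj (by rw [map_zpow, P.dia_short, ← hk]; rfl)
    have hB : B = diaT (-1) ^ k := P.long_inj (by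
      have h5 : ψ (diaT (-1 : F)) = (φ (diaT (-1)))⁻¹ := eq_inv_of_mul_eq_one_right hzm
      rw [map_zpow, h5, inv_zpow, ← map_zpow, ← hA]
      exact eq_inv_of_mul_eq_one_right h)
    rw [hA, hB]
    rfl
  have hord : orderOf ((diaT (-1 : F), diaT (-1)) : SL(2, F) × SL(2, F)) = 2 := by
    refine orderOf_eq_prime ?_ fun e => hz (congrArg Prod.fst e)
    rw [sq]
    exact Prod.ext hzz hzz
  have h := Subgroup.card_eq_card_quotient_mul_card_subgroup f.ker
  rw [Nat.card_congr (QuotientGroup.quotientKerEquivRange f).toEquiv, hker, Nat.card_zpowers, hord,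
    Nat.card_prod, MonoidHom.noncommCoprod_range φ ψ P.commute] at h
  rw [← h, sq]

theorem card_centralizer [Fintype F] (P : RootPair φ ψ) (h2 : (2 : F) ≠ 0) :
    Nat.card ↥((φ.range ⊔ ψ.range) ⊔ (sys F).Hbar) =
      Fintype.card F ^ 2 * (Fintype.card F ^ 2 - 1) ^ 2 := by
  have h : Nat.card ↥(φ.range ⊔ ψ.range) * (φ.range ⊔ ψ.range).relIndex ((φ.range ⊔ ψ.range) ⊔ (sys F).Hbar) =
      Nat.card ↥((φ.range ⊔ ψ.range) ⊔ (sys F).Hbar) := by
    have := Subgroup.relIndex_mul_relIndex ⊥ (φ.range ⊔ ψ.range) ((φ.range ⊔ ψ.range) ⊔ (sys F).Hbar)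
      bot_le le_sup_left
    rwa [Subgroup.relIndex_bot_left, Subgroup.relIndex_bot_left] at this
  rw [P.relIndex_eq_two h2, P.card_mul_two h2, Linear.card_SL_two] at h
  rw [← h, mul_assoc, mul_pow, show (Fintype.card F - 1) * (Fintype.card F + 1) = Fintype.card F ^ 2 - 1 by
    rw [mul_comm, ← Nat.sq_sub_sq, one_pow]]

end RootPair

end Cfsg.Agent.G2Inv
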