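import Cfsg.Agent.G2Inv.CentCard

/-!
Centralizers of involutions in `G₂(q)`, `q` odd.
-/

set_option autoImplicit false

namespace Cfsg.Agent.G2Inv

open Cfsg.Lie Cfsg.Agent.ChevGrp
open scoped MatrixGroups

variable {F : Type*} [Field F] [Fintype F]

theorem involution_centralizer (hF : Odd (Fintype.card F)) (t : ↥(chevG2.group F)) (ht : orderOf t = 2) :
    Nat.card (Subgroup.centralizer ({t} : Set ↥(chevG2.group F))) =
        Fintype.card F ^ 2 * (Fintype.card F ^ 2 - 1) ^ 2 ∧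
      ∃ L₁ L₂ : Subgroup ↥(chevG2.group F),
        Nonempty (L₁ ≃* Matrix.SpecialLinearGroup (Fin 2) F) ∧
        Nonempty (L₂ ≃* Matrix.SpecialLinearGroup (Fin 2) F) ∧ (∀ x ∈ L₁, ∀ y ∈ L₂, x * y = y * x) ∧
        L₁ ⊓ L₂ = Subgroup.zpowers t ∧
        L₁ ⊔ L₂ ≤ Subgroup.centralizer ({t} : Set ↥(chevG2.group F)) ∧
        (L₁ ⊔ L₂).relIndex (Subgroup.centralizer ({t} : Set ↥(chevG2.group F))) = 2 := by
  classical
  have h2 := two_ne_of_odd hF
  have hG : chevG2.group F = (sys F).Gbar := group_eq (rules F)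
  have h1 : (t : GL chevG2.Idx F) ≠ 1 := fun e => by
    rw [← Subgroup.orderOf_coe, e, orderOf_one] at ht
    omega
  have hsq : (t : GL chevG2.Idx F) * t = 1 := by
    have := pow_orderOf_eq_one (t : GL chevG2.Idx F)
    rwa [Subgroup.orderOf_coe, ht, sq] at this
  obtain ⟨c, hc, hct⟩ := conjZ_of_involution hF (hG ▸ t.2) h1 hsq
  set f : ↥(chevG2.group F) →* GL chevG2.Idx F :=
    (MulAut.conj c).toMonoidHom.comp (chevG2.group F).subtype with hf
  have hfa : ∀ x, f x = c * (x : GL chevG2.Idx F) * c⁻¹ := fun x => rfl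
  have hinj : Function.Injective f := fun x y e => Subtype.ext ((MulAut.conj c).injective e)
  have hrange : f.range = (sys F).Gbar := by
    refine le_antisymm ?_ fun y hy => ?_
    · rintro _ ⟨x, rfl⟩
      rw [hfa]
      exact mul_mem (mul_mem hc (hG ▸ x.2)) (inv_mem hc)
    · exact ⟨⟨c⁻¹ * y * c, hG.symm ▸ mul_mem (mul_mem (inv_mem hc) hy) hc⟩, by rw [hfa]; group⟩
  have hft : f t = zEl F := by rw [hfa]; exact hct
  obtain ⟨φ, ψ, P⟩ := exists_rootPair h2
  have hcent : Subgroup.centralizer ({t} : Set ↥(chevG2.group F)) =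
      ((φ.range ⊔ ψ.range) ⊔ (sys F).Hbar).comap f := by
    rw [← P.centralizer_eq h2]
    ext x
    rw [Subgroup.mem_comap, Subgroup.mem_inf, Subgroup.mem_centralizer_singleton_iff,
      Subgroup.mem_centralizer_singleton_iff, ← hft, ← map_mul, ← map_mul, hinj.eq_iff, ← hrange]
    exact ⟨fun h => ⟨⟨x, rfl⟩, h⟩, fun h => h.2⟩
  have hle : (φ.range ⊔ ψ.range) ⊔ (sys F).Hbar ≤ f.range := by
    rw [hrange, ← P.centralizer_eq h2]; exact inf_le_left
  have hφ : φ.range ≤ f.range := le_sup_left.trans (le_sup_left.trans hle)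
  have hψ : ψ.range ≤ f.range := le_sup_right.trans (le_sup_left.trans hle)
  have equiv : ∀ {K : Subgroup (GL chevG2.Idx F)}, K ≤ f.range → Nonempty (↥(K.comap f) ≃* ↥K) := by
    intro K hK
    exact ⟨((K.comap f).equivMapOfInjective f hinj).trans
      (MulEquiv.subgroupCongr (Subgroup.map_comap_eq_self hK))⟩
  obtain ⟨eC⟩ := equiv hle
  obtain ⟨e1⟩ := equiv hφ
  obtain ⟨e2⟩ := equiv hψ
  have hsup : φ.range.comap f ⊔ ψ.range.comap f = (φ.range ⊔ ψ.range).comap f :=
    Subgroup.comap_sup_eq_of_le_range f hφ hψ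
  refine ⟨?_, φ.range.comap f, ψ.range.comap f, ?_, ?_, ?_, ?_, ?_, ?_⟩
  · rw [hcent, Nat.card_congr eC.toEquiv]
    exact P.card_centralizer h2
  · exact ⟨e1.trans (MonoidHom.ofInjective P.short_inj).symm⟩
  · exact ⟨e2.trans (MonoidHom.ofInjective P.long_inj).symm⟩
  · intro x hx y hy
    rw [Subgroup.mem_comap] at hx hy
    obtain ⟨A, hA⟩ := hx
    obtain ⟨B, hB⟩ := hy
    apply hinj
    rw [map_mul, map_mul, ← hA, ← hB]
    exact (P.commute A B).eq
  · rw [← Subgroup.comap_inf, P.inf_eq_zpowers, ← hft, ← MonoidHom.map_zpowers,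
      Subgroup.comap_map_eq_self_of_injective hinj]
  · rw [hsup, hcent]
    exact Subgroup.comap_mono le_sup_left
  · rw [hsup, hcent, Subgroup.relIndex_comap, Subgroup.map_comap_eq_self hle]
    exact P.relIndex_eq_two h2

end Cfsg.Agent.G2Inv
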