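import Cfsg.Agent.G2Inv.Longest

/-!
`G₂(q)`, `q` odd, has one class of involutions.
-/

set_option autoImplicit false

namespace Cfsg.Agent.G2Inv

open Cfsg.Lie Cfsg.Agent.ChevGrp
open scoped MatrixGroups

variable {F : Type*} [Field F] [Fintype F]

theorem Nbar_le_Gbar : (sys F).Nbar ≤ (sys F).Gbar := by
  obtain ⟨len, hR⟩ := (rules F).root
  rw [(sys F).Gbar_eq hR (rules F)]
  exact le_sup_right

theorem Bbar_le_Gbar : (sys F).Bbar ≤ (sys F).Gbar := by
  obtain ⟨len, hR⟩ := (rules F).root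
  rw [(sys F).Gbar_eq hR (rules F)]
  exact le_sup_left

/-- `g` is conjugate to the standard involution inside the group. -/
def ConjZ (g : GL chevG2.Idx F) : Prop := ∃ c ∈ (sys F).Gbar, c * g * c⁻¹ = zEl F

theorem ConjZ.of_conj {g : GL chevG2.Idx F} {c : GL chevG2.Idx F} (hc : c ∈ (sys F).Gbar)
    (h : ConjZ (c * g * c⁻¹)) : ConjZ g := by
  obtain ⟨d, hd, e⟩ := h
  exact ⟨d * c, mul_mem hd hc, by rw [← e]; group⟩

theorem conj_ne_one {g c : GL chevG2.Idx F} (h : g ≠ 1) : c * g * c⁻¹ ≠ 1 := fun e => h (by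
  have := congrArg (fun x => c⁻¹ * x * c) e
  simpa [mul_assoc] using this)

theorem conjZ_monomial_trivial {m : GL chevG2.Idx F} (hm : m ∈ (sys F).Nbar)
    (hc : (sys F).ConjP m []) (h1 : m ≠ 1) (h2 : m * m = 1) : ConjZ m := by
  obtain ⟨k, hk, e⟩ := eq_of_act hm hc
  rw [Sys.nW_nil, mul_one] at e
  exact diagonal_involution (e ▸ hk) h1 h2

theorem conjZ_of_borel (hF : Odd (Fintype.card F)) {g : GL chevG2.Idx F} (hb : g ∈ (sys F).Bbar)
    (h1 : g ≠ 1) (h2 : g * g = 1) : ConjZ g := by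
  obtain ⟨c, hc, m, hm, e, hm2, hcm, -⟩ := exists_monomial hF h2 (w := []) (v := 1) hb (one_mem _)
    (by simp [Sys.nW_nil])
  exact ConjZ.of_conj (Bbar_le_Gbar hc) (e ▸ conjZ_monomial_trivial hm hcm (e ▸ conj_ne_one h1) hm2)

theorem conjZ_monomial_small (hF : Odd (Fintype.card F)) {m : GL chevG2.Idx F} (hm : m ∈ (sys F).Nbar)
    {w : List (Fin chevG2.rank)} (hc : (sys F).ConjP m w)
    (hw : ∀ s < 12, act chevG2 w (act chevG2 w s) = s)
    (hw0 : ¬ ∀ s < 12, act chevG2 w s = act chevG2 w0 s) (h1 : m ≠ 1) (h2 : m * m = 1) : ConjZ m := by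
  obtain ⟨len, hR⟩ := (rules F).root
  obtain ⟨v, hv, e⟩ := exists_rep w
  have hvi : ∀ s < 12, act chevG2 v (act chevG2 v s) = s := fun s hs => by
    rw [← e s hs, ← e _ (hR.act_lt w hs), hw s hs]
  rcases reps_involution v hv hvi with hid | hlong | ⟨c, -, i, hi⟩
  · exact conjZ_monomial_trivial hm (conjP_congr hc fun s hs => (e s hs).trans (hid s hs)) h1 h2
  · exact absurd (fun s hs => (e s hs).trans (hlong s hs)) hw0
  · have hd := (sys F).conjP_nW (rules F) hR c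
    have hdG := Nbar_le_Gbar ((sys F).nW_mem_Nbar c)
    have hN : ((sys F).nW c)⁻¹ * m * (((sys F).nW c)⁻¹)⁻¹ ∈ (sys F).Nbar := by
      rw [inv_inv]
      exact mul_mem (mul_mem (inv_mem ((sys F).nW_mem_Nbar c)) hm) ((sys F).nW_mem_Nbar c)
    have hcp : (sys F).ConjP (((sys F).nW c)⁻¹ * m * (((sys F).nW c)⁻¹)⁻¹) [i] := by
      rw [inv_inv]
      refine conjP_congr (((Sys.ConjP.inv hR hd).mul hR hc).mul hR hd) fun s hs => ?_
      rw [act_append, act_append, e _ (hR.act_lt c hs), hi _ (hR.act_lt c hs), act_append, act_append,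
        hR.act_reverse_act c hs]
      exact hR.act_reverse_act c (hR.act_lt [i] hs)
    have hsq : (((sys F).nW c)⁻¹ * m * (((sys F).nW c)⁻¹)⁻¹) * (((sys F).nW c)⁻¹ * m * (((sys F).nW c)⁻¹)⁻¹) = 1 := by
      rw [conj_mul, h2, mul_one, mul_inv_cancel]
    obtain ⟨d, hd', hdB⟩ := reflection_to_borel hN hcp hsq
    refine ConjZ.of_conj (inv_mem hdG) (ConjZ.of_conj hd' ?_)
    refine conjZ_of_borel hF hdB (conj_ne_one (conj_ne_one h1)) ?_
    rw [conj_mul, hsq, mul_one, mul_inv_cancel]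

theorem conjZ_of_involution (hF : Odd (Fintype.card F)) {g : GL chevG2.Idx F} (hg : g ∈ (sys F).Gbar)
    (h1 : g ≠ 1) (h2 : g * g = 1) : ConjZ g := by
  obtain ⟨len, hR⟩ := (rules F).root
  have step : ∀ {x b v : GL chevG2.Idx F} {w : List (Fin chevG2.rank)}, x ≠ 1 → x * x = 1 →
      b ∈ (sys F).Bbar → v ∈ (sys F).US (invSet chevG2 w) → x = b * (sys F).nW w * v →
      (¬ ∀ s < 12, act chevG2 w s = act chevG2 w0 s) → ConjZ x := by
    intro x b v w hx1 hx2 hb hv e hw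
    obtain ⟨c, hc, m, hm, ec, hm2, hcm, hinv⟩ := exists_monomial hF hx2 hb hv e
    exact ConjZ.of_conj (Bbar_le_Gbar hc)
      (ec ▸ conjZ_monomial_small hF hm hcm hinv hw (ec ▸ conj_ne_one hx1) hm2)
  obtain ⟨b, hb, w, -, v, hv, e⟩ := (sys F).mem_NF (rules F) hR hg
  by_cases hw : ∀ s < 12, act chevG2 w s = act chevG2 w0 s
  · obtain ⟨c, hc, m, hm, ec, hm2, hcm, -⟩ := exists_monomial hF h2 hb hv e
    refine ConjZ.of_conj (Bbar_le_Gbar hc) ?_
    rw [ec]
    obtain ⟨u, hu, h0⟩ := exists_conj_out hF hm (conjP_congr hcm hw)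
    refine ConjZ.of_conj hu ?_
    have hmem : u * m * u⁻¹ ∈ (sys F).Gbar := mul_mem (mul_mem hu (Nbar_le_Gbar hm)) (inv_mem hu)
    obtain ⟨b', hb', w', -, v', hv', e'⟩ := (sys F).mem_NF (rules F) hR hmem
    refine step (conj_ne_one (ec ▸ conj_ne_one h1)) (by rw [conj_mul, hm2, mul_one, mul_inv_cancel])
      hb' hv' e' fun hw' => ?_
    exact not_big_cell hb' (((sys F).US_mono fun r h => h.1) hv') e' h0
      ((hw' 11 (by norm_num)).trans (by decide +kernel))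
  · exact step h1 h2 hb hv e hw

theorem isConj_of_involutions (hF : Odd (Fintype.card F)) (s t : ↥(chevG2.group F))
    (hs : orderOf s = 2) (ht : orderOf t = 2) : IsConj s t := by
  have key : ∀ x : ↥(chevG2.group F), orderOf x = 2 → ∃ c : ↥(chevG2.group F),
      ((c * x * c⁻¹ : ↥(chevG2.group F)) : GL chevG2.Idx F) = zEl F := by
    intro x hx
    have hxG : (x : GL chevG2.Idx F) ∈ (sys F).Gbar := group_eq (rules F) ▸ x.2
    have h1 : (x : GL chevG2.Idx F) ≠ 1 := fun e => by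
      rw [← Subgroup.orderOf_coe, e, orderOf_one] at hx
      omega
    have h2 : (x : GL chevG2.Idx F) * x = 1 := by
      have := pow_orderOf_eq_one (x : GL chevG2.Idx F)
      rwa [Subgroup.orderOf_coe, hx, sq] at this
    obtain ⟨c, hc, e⟩ := conjZ_of_involution hF hxG h1 h2
    exact ⟨⟨c, (group_eq (rules F)).symm ▸ hc⟩, e⟩
  obtain ⟨c, hc⟩ := key s hs
  obtain ⟨d, hd⟩ := key t ht
  refine isConj_iff.2 ⟨d⁻¹ * c, ?_⟩
  have e : c * s * c⁻¹ = d * t * d⁻¹ := Subtype.ext (hc.trans hd.symm)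
  calc d⁻¹ * c * s * (d⁻¹ * c)⁻¹ = d⁻¹ * (c * s * c⁻¹) * d := by group
    _ = t := by rw [e]; group

end Cfsg.Agent.G2Inv
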