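import Cfsg.Agent.G2Inv.Reflect

/-!
One matrix entry of a product of four root elements of `G₂`.
-/

set_option autoImplicit false

namespace Cfsg.Agent.G2Inv

open Cfsg.Lie Cfsg.Agent.ChevGrp
open scoped MatrixGroups

variable {F : Type*} [Field F]

/-- The monomials of an entry of a root element. -/
def entryZ (D : ChevalleyDatum) (r : Fin D.nroots) (row col : D.Idx) : List (ℤ × ℕ) :=
  match col with
  | Sum.inl i =>
    (match row with
     | Sum.inl i' => if i' = i then [(1, 0)] else []
     | Sum.inr u => if u = r then [(-((D.cartanSR.getD i.val #[]).getD r.val 0), 1)] else [])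
  | Sum.inr s =>
    if s = r then (match row with | Sum.inr u => if u = r then [(1, 0)] else [] | Sum.inl _ => [])
    else if s.val = D.negIdx.getD r.val 0 then
      (match row with
       | Sum.inl i => [((D.coroot.getD r.val #[]).getD i.val 0, 1)]
       | Sum.inr u => if u = s then [(1, 0)] else if u = r then [(-1, 2)] else [])
    else
      (match row with
       | Sum.inl _ => []
       | Sum.inr u => (if u = s then [((1 : ℤ), 0)] else []) ++
           (D.chainCoeff r.val s.val u.val).map fun km => (km.2, km.1))

/-- Evaluation in one variable. -/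
def evOne (t : F) (L : List (ℤ × ℕ)) : F := (L.map fun p => (p.1 : F) * t ^ p.2).sum

theorem x_apply (D : ChevalleyDatum) {r : ℕ} (hr : r < D.nroots) (t : F) (a b : D.Idx) :
    D.x F r t a b = evOne t (entryZ D ⟨r, hr⟩ a b) := by
  rw [ChevalleyDatum.x, dif_pos hr, ChevalleyDatum.xMat, Matrix.of_apply, evOne]
  unfold entryZ
  rcases b with i | s
  · rcases a with i' | u
    · dsimp only; split_ifs <;> simp
    · dsimp only; split_ifs <;> simp
  · dsimp only
    split_ifs with h1 h2
    · rcases a with i' | u
      · simp
      · dsimp only; split_ifs <;> simp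
    · rcases a with i' | u
      · simp
      · dsimp only; split_ifs <;> simp
    · rcases a with i' | u
      · simp
      · dsimp only
        split_ifs <;> simp [List.map_map, Function.comp_def]

/-- A monomial in four variables. -/
abbrev Mono : Type := ℤ × ℕ × ℕ × ℕ × ℕ

/-- Evaluation in four variables. -/
def evFour (A C E K : F) (L : List Mono) : F :=
  (L.map fun m => (m.1 : F) * A ^ m.2.1 * C ^ m.2.2.1 * E ^ m.2.2.2.1 * K ^ m.2.2.2.2).sum

/-- The product of four one-variable lists. -/
def prodFour (L1 L2 L3 L4 : List (ℤ × ℕ)) : List Mono :=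
  L1.flatMap fun p => L2.flatMap fun q => L3.flatMap fun r => L4.map fun s =>
    (p.1 * q.1 * r.1 * s.1, p.2, q.2, r.2, s.2)

theorem evFour_flatMap {β : Type*} (A C E K : F) (l : List β) (g : β → List Mono) :
    evFour A C E K (l.flatMap g) = (l.map fun x => evFour A C E K (g x)).sum := by
  induction l with
  | nil => simp [evFour]
  | cons x l ih =>
    rw [List.flatMap_cons, List.map_cons, List.sum_cons, ← ih]
    simp [evFour]

theorem evFour_prodFour (A C E K : F) (L1 L2 L3 L4 : List (ℤ × ℕ)) :
    evFour A C E K (prodFour L1 L2 L3 L4) =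
      evOne A L1 * evOne C L2 * evOne E L3 * evOne K L4 := by
  have h4 : ∀ p q r : ℤ × ℕ, evFour A C E K (L4.map fun s => (p.1 * q.1 * r.1 * s.1, p.2, q.2, r.2, s.2)) =
      ((p.1 : F) * A ^ p.2) * ((q.1 : F) * C ^ q.2) * ((r.1 : F) * E ^ r.2) * evOne K L4 := by
    intro p q r
    rw [evFour, List.map_map, evOne, ← List.sum_map_mul_left]
    refine congrArg List.sum (List.map_congr_left fun s _ => ?_)
    simp only [Function.comp_apply, Int.cast_mul]
    ring
  simp only [prodFour, evFour_flatMap, h4, List.sum_map_mul_right, List.sum_map_mul_left, evOne]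

theorem evFour_filter (A C E K : F) (L : List Mono) :
    evFour A C E K (L.filter fun m => decide (m.1 ≠ 0)) = evFour A C E K L := by
  induction L with
  | nil => rfl
  | cons m L ih =>
    by_cases h : m.1 = 0
    · rw [List.filter_cons_of_neg (by simp [h]), ih]
      simp [evFour, h]
    · rw [List.filter_cons_of_pos (by simp [h])]
      simp only [evFour, List.map_cons, List.sum_cons] at ih ⊢
      rw [ih]

/-- All indices. -/
def allIdx (D : ChevalleyDatum) : List D.Idx :=
  (List.finRange D.rank).map Sum.inl ++ (List.finRange D.nroots).map Sum.inr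

theorem sum_allIdx (D : ChevalleyDatum) (f : D.Idx → F) : ∑ a, f a = ((allIdx D).map f).sum := by
  rw [allIdx, List.map_append, List.sum_append, Fintype.sum_sum_type, List.map_map, List.map_map]
  congr 1 <;> rw [← List.ofFn_eq_map, List.sum_ofFn] <;> rfl

/-- The index of the lowest root. -/
abbrev bot : chevG2.Idx := Sum.inr ⟨0, by decide⟩

/-- The monomials of the entry. -/
def entryMonos : List Mono :=
  ((allIdx chevG2).flatMap fun a => (allIdx chevG2).flatMap fun b => (allIdx chevG2).flatMap fun c =>
    prodFour (entryZ chevG2 ⟨0, by decide⟩ bot a) (entryZ chevG2 ⟨5, by decide⟩ a b)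
      (entryZ chevG2 ⟨6, by decide⟩ b c) (entryZ chevG2 ⟨11, by decide⟩ c bot)).filter
    fun m => decide (m.1 ≠ 0)

theorem entry_eq_eval (A C E K : F) :
    (chevG2.x F 0 A * chevG2.x F 5 C * chevG2.x F 6 E * chevG2.x F 11 K) bot bot =
      evFour A C E K entryMonos := by
  rw [entryMonos, evFour_filter]
  simp only [evFour_flatMap, evFour_prodFour, ← sum_allIdx]
  simp only [Matrix.mul_assoc]
  simp only [Matrix.mul_apply, Finset.mul_sum, ← x_apply]
  refine Finset.sum_congr rfl fun a _ => Finset.sum_congr rfl fun b _ => Finset.sum_congr rfl fun c _ => ?_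
  ring

end Cfsg.Agent.G2Inv
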