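import Cfsg.Agent.G2Inv.Entry
import Cfsg.Agent.Linear.Classes

/-!
Monomial involutions over the longest Weyl element: a conjugate leaves the big cell.
-/

set_option autoImplicit false

namespace Cfsg.Agent.G2Inv

open Cfsg.Lie Cfsg.Agent.ChevGrp
open scoped MatrixGroups

variable {F : Type*} [Field F]

/-- The index of the highest root. -/
abbrev top : chevG2.Idx := Sum.inr ⟨11, by decide⟩

theorem entry_formula (A C E K : F) :
    (chevG2.x F 0 A * chevG2.x F 5 C * chevG2.x F 6 E * chevG2.x F 11 K) bot bot =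
      (1 + A * K + C * E) * (1 + A * K) := by
  rw [entry_eq_eval, show entryMonos =
    [(2, 1, 0, 0, 1), (-3, 1, 1, 1, 1), (4, 1, 1, 1, 1), (1, 0, 0, 0, 0), (1, 0, 1, 1, 0), (1, 2, 0, 0, 2)]
    by decide +kernel]
  simp only [evFour, List.map_cons, List.map_nil, List.sum_cons, List.sum_nil]
  push_cast
  ring

theorem col_top_of_act {m : GL chevG2.Idx F} (hm : m ∈ (sys F).Nbar) (hc : (sys F).ConjP m w0)
    (a : chevG2.Idx) (ha : a ≠ bot) :
    (m : Matrix chevG2.Idx chevG2.Idx F) a top = 0 := by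
  obtain ⟨len, hR⟩ := (rules F).root
  obtain ⟨k, hk, rfl⟩ := eq_of_act hm hc
  obtain ⟨d, -, ed⟩ := (sys F).mat_Hbar (rules F) hR hk
  obtain ⟨c, -, ec⟩ := (sys F).mat_nW (rules F) hR w0
  rw [glSys_mat] at ed
  rw [Units.val_mul, ed, Matrix.diagonal_mul]
  have := ec a ⟨11, by decide⟩
  rw [glSys_mat, if_neg] at this
  · rw [this, mul_zero]
  · intro e
    exact ha (e.trans (congrArg Sum.inr (Fin.ext (show act chevG2 w0 11 = 0 by decide +kernel))))

theorem ht_le_top {len : ℕ → ℕ} (hR : RootTable chevG2 len) (a : Fin chevG2.nroots) :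
    htHom chevG2 (vec chevG2 len a) ≤ htHom chevG2 (vec chevG2 len 11) := by
  have l : ∀ n, n < 12 → n < chevG2.nroots := fun n h => h
  have step : ∀ r s u : ℕ, r < 12 → s < 12 → u < 12 → ∀ M : ℤ, s ≠ r → s ≠ chevG2.neg r →
      chevG2.chainCoeff r s u = [(1, M)] →
      htHom chevG2 (vec chevG2 len u) = htHom chevG2 (vec chevG2 len s) + htHom chevG2 (vec chevG2 len r) := by
    intro r s u hr hs hu M h1 h2 hc
    obtain ⟨-, hv⟩ := hR.chainCoeff_vec r (l r hr) s (l s hs) h1 h2 u (l u hu) (1, M) (by rw [hc]; simp)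
    rw [hv, map_add, map_zsmul]
    simp
  have pos : ∀ r : ℕ, r < 12 → chevG2.IsPosRoot r → 0 < htHom chevG2 (vec chevG2 len r) :=
    fun r hr hp => (hR.pos_iff_ht (l r hr)).1 hp
  have p6 := pos 6 (by norm_num) (by decide +kernel)
  have p7 := pos 7 (by norm_num) (by decide +kernel)
  have s8 := step 7 6 8 (by norm_num) (by norm_num) (by norm_num) _ (by decide) (by decide +kernel)
    (show chevG2.chainCoeff 7 6 8 = [(1, -1)] by decide +kernel)
  have s9 := step 7 8 9 (by norm_num) (by norm_num) (by norm_num) _ (by decide) (by decide +kernel)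
    (show chevG2.chainCoeff 7 8 9 = [(1, -2)] by decide +kernel)
  have s10 := step 7 9 10 (by norm_num) (by norm_num) (by norm_num) _ (by decide) (by decide +kernel)
    (show chevG2.chainCoeff 7 9 10 = [(1, 3)] by decide +kernel)
  have s11 := step 6 10 11 (by norm_num) (by norm_num) (by norm_num) _ (by decide) (by decide +kernel)
    (show chevG2.chainCoeff 6 10 11 = [(1, 1)] by decide +kernel)
  have n : ∀ r : ℕ, r < 6 → htHom chevG2 (vec chevG2 len r) < 0 := fun r hr =>
    (hR.neg_iff_ht (l r (by omega))).1 ((by decide +kernel : ∀ r < 6, chevG2.IsNegRoot r) r hr)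
  obtain ⟨a, ha⟩ := a
  have ha' : a < 12 := ha
  have n0 := n 0 (by norm_num)
  have n1 := n 1 (by norm_num)
  have n2 := n 2 (by norm_num)
  have n3 := n 3 (by norm_num)
  have n4 := n 4 (by norm_num)
  have n5 := n 5 (by norm_num)
  show htHom chevG2 (vec chevG2 len a) ≤ _
  interval_cases a <;> omega

theorem not_big_cell {g b v : GL chevG2.Idx F} {w : List (Fin chevG2.rank)} (hb : b ∈ (sys F).Bbar)
    (hv : v ∈ (sys F).Ubar) (e : g = b * (sys F).nW w * v)
    (h0 : (g : Matrix chevG2.Idx chevG2.Idx F) bot top = 0) (hw : act chevG2 w 11 = 0) : False := by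
  obtain ⟨len, hR⟩ := (rules F).root
  obtain ⟨c, hc, ec⟩ := (sys F).mat_nW (rules F) hR w
  have hr := (sys F).raise_Ubar hR hv
  have hcol : ∀ a, (v : Matrix chevG2.Idx chevG2.Idx F) a top = (1 : Matrix chevG2.Idx chevG2.Idx F) a top := by
    intro a
    refine hr.eq_one_apply ?_
    have hd : degI chevG2 len (htHom chevG2) a ≤ degI chevG2 len (htHom chevG2) top := by
      rcases a with a | a
      · simp only [degI, Sum.elim_inl, Sum.elim_inr]
        exact ((hR.pos_iff_ht (r := 11) (by decide)).1 (by decide +kernel)).le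
      · exact ht_le_top hR a
    omega
  have hd : (1 : Matrix chevG2.Idx chevG2.Idx F) top top = 1 := Matrix.one_apply_eq _
  have h1 : (((sys F).nW w * v : GL chevG2.Idx F) : Matrix chevG2.Idx chevG2.Idx F) =
      ((sys F).nW w : Matrix chevG2.Idx chevG2.Idx F) * (v : Matrix chevG2.Idx chevG2.Idx F) := Units.val_mul _ _
  have hnv : ∀ a, (((sys F).nW w * v : GL chevG2.Idx F) : Matrix chevG2.Idx chevG2.Idx F) a top =
      if a = bot then c ⟨11, by decide⟩ else 0 := by
    intro a
    rw [h1, Matrix.mul_apply, Finset.sum_eq_single top]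
    · rw [hcol, hd, mul_one, ← glSys_mat (rules F), ec]
      simp only [Fin.ext_iff, hw, Sum.inr.injEq]
    · intro x _ hx
      rw [hcol, Matrix.one_apply_ne hx, mul_zero]
    · simp
  rw [e, mul_assoc, Units.val_mul, Matrix.mul_apply, Finset.sum_eq_single bot, hnv, if_pos rfl] at h0
  · exact mul_ne_zero (((sys F).mat_Bbar (rules F) hR hb).2 bot) (hc _) h0
  · intro x _ hx
    rw [hnv, if_neg hx, mul_zero]
  · simp

theorem exists_conj_out [Fintype F] (hF : Odd (Fintype.card F)) {m : GL chevG2.Idx F}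
    (hm : m ∈ (sys F).Nbar) (hc : (sys F).ConjP m w0) :
    ∃ u ∈ (sys F).Gbar, ((u * m * u⁻¹ : GL chevG2.Idx F) : Matrix chevG2.Idx chevG2.Idx F) bot top = 0 := by
  classical
  obtain ⟨len, hR⟩ := (rules F).root
  obtain ⟨a, ha, hma⟩ := id hc
  have e5 : act chevG2 w0 5 = 6 := by decide +kernel
  have e0 : act chevG2 w0 0 = 11 := by decide +kernel
  have l5 : 5 < chevG2.nroots := by decide
  have l0 : 0 < chevG2.nroots := by decide
  have h2 : (2 : F) ≠ 0 := by
    intro h
    have hr : ringChar F = 2 := ((Nat.prime_dvd_prime_iff_eq (CharP.char_is_prime F (ringChar F))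
      Nat.prime_two).1 (ringChar.dvd (by simpa using h)))
    have := FiniteField.even_card_of_char_two hr
    exact (Nat.not_even_iff_odd.2 hF) (Nat.even_iff.2 this)
  have la : a 5 ≠ 0 := right_ne_zero_of_mul_eq_one (ha 5 l5)
  have lb : a 0 ≠ 0 := right_ne_zero_of_mul_eq_one (ha 0 l0)
  obtain ⟨⟨c, d⟩, hcd⟩ := Cfsg.Agent.Linear.Classes.exists_normForm_eq (t := (0 : F)) (d := a 0 / a 5)
    (Or.inr (by
      rw [zero_pow two_ne_zero, show (4 : F) = 2 * 2 by norm_num]
      exact fun e => mul_ne_zero (mul_ne_zero h2 h2) (div_ne_zero lb la) e.symm)) (a 5)⁻¹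
  simp only [Linear.Classes.normForm] at hcd
  refine ⟨(sys F).x 0 d * (sys F).x 5 c, mul_mem (x_mem_Gbar (by decide) _) (x_mem_Gbar (by decide) _), ?_⟩
  have e : (sys F).x 0 d * (sys F).x 5 c * m * ((sys F).x 0 d * (sys F).x 5 c)⁻¹ =
      (sys F).x 0 d * (sys F).x 5 c * (sys F).x 6 (a 5 * -c) * (sys F).x 11 (a 0 * -d) * m := by
    rw [← congrArg (fun r => (sys F).x r (a 5 * -c)) e5, ← congrArg (fun r => (sys F).x r (a 0 * -d)) e0,
      ← hma 5 l5, ← hma 0 l0, mul_inv_rev, (sys F).x_inv l5, (sys F).x_inv l0]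
    group
  rw [e]
  simp only [Units.val_mul]
  rw [Matrix.mul_apply, Finset.sum_eq_single bot]
  · show (((xGL chevG2 F 0 d : GL chevG2.Idx F) : Matrix chevG2.Idx chevG2.Idx F) *
        (xGL chevG2 F 5 c : GL chevG2.Idx F) * (xGL chevG2 F 6 (a 5 * -c) : GL chevG2.Idx F) *
        (xGL chevG2 F 11 (a 0 * -d) : GL chevG2.Idx F)) bot bot * _ = 0
    rw [val_xGL (rules F), val_xGL (rules F), val_xGL (rules F), val_xGL (rules F), entry_formula]
    have : 1 + d * (a 0 * -d) + c * (a 5 * -c) = 0 := by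
      field_simp at hcd
      linear_combination -hcd
    rw [this, zero_mul, zero_mul]
  · intro x _ hx
    rw [col_top_of_act hm hc x hx, mul_zero]
  · simp

end Cfsg.Agent.G2Inv
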