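import Cfsg.Agent.G2Inv.Weyl

/-!
Every involution of `G₂(q)`, `q` odd, is conjugate to a monomial one.
-/

set_option autoImplicit false

namespace Cfsg.Agent.G2Inv

open Cfsg.Lie Cfsg.Agent.ChevGrp
open scoped MatrixGroups

variable {F : Type*} [Field F] [Fintype F]

theorem hpair_pow {a b : F} (ha : a ≠ 0) (hb : b ≠ 0) (n : ℕ) :
    hpair a b ^ n = hpair (a ^ n) (b ^ n) := by
  induction n with
  | zero => simp [hpair_one]
  | succ n ih => rw [pow_succ, ih, hpair_mul (pow_ne_zero _ ha) (pow_ne_zero _ hb) ha hb, ← pow_succ, ← pow_succ]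

theorem exists_card_Ubar :
    ∃ k : ℕ, Nat.card ↥((sys F).Ubar) = Fintype.card F ^ k := by
  obtain ⟨len, hR⟩ := (rules F).root
  refine ⟨Nat.card (posSet chevG2), ?_⟩
  rw [Sys.Ubar, (sys F).card_US hR hR.posSet_closed, Nat.card_eq_fintype_card]

theorem pow_card_Ubar {u : GL chevG2.Idx F} (hu : u ∈ (sys F).Ubar) :
    u ^ Nat.card ↥((sys F).Ubar) = 1 :=
  congrArg Subtype.val (pow_card_eq_one' (x := (⟨u, hu⟩ : ↥((sys F).Ubar))))

theorem mem_Ubar_of_pow {b : GL chevG2.Idx F} (hb : b ∈ (sys F).Bbar)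
    (h : b ^ Nat.card ↥((sys F).Ubar) = 1) : b ∈ (sys F).Ubar := by
  obtain ⟨len, hR⟩ := (rules F).root
  obtain ⟨u, hu, k, hk, rfl⟩ := ((sys F).mem_Bbar (rules F) hR).1 hb
  have key : ∀ n : ℕ, ∃ v ∈ (sys F).Ubar, (u * k) ^ n = v * k ^ n := by
    intro n
    induction n with
    | zero => exact ⟨1, one_mem _, by simp⟩
    | succ n ih =>
      obtain ⟨v, hv, e⟩ := ih
      refine ⟨v * (k ^ n * u * (k ^ n)⁻¹), mul_mem hv ((Subgroup.mem_normalizer_iff.1
        ((sys F).Hbar_le_normalizer_Ubar (rules F) hR (pow_mem hk n)) u).1 hu), ?_⟩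
      rw [pow_succ, e, pow_succ]
      group
  obtain ⟨v, hv, e⟩ := key (Nat.card ↥((sys F).Ubar))
  rw [h] at e
  have h1 : k ^ Nat.card ↥((sys F).Ubar) = 1 := by
    have : k ^ Nat.card ↥((sys F).Ubar) ∈ (sys F).Ubar ⊓ (sys F).Hbar :=
      Subgroup.mem_inf.2 ⟨by rw [eq_inv_of_mul_eq_one_right e.symm]; exact inv_mem hv, pow_mem hk _⟩
    rwa [(sys F).Ubar_inf_Hbar (rules F) hR, Subgroup.mem_bot] at this
  obtain ⟨a, b, ha, hb', rfl⟩ := exists_hpair hk
  have h2 : hpair a b ^ (Fintype.card F - 1) = 1 := by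
    rw [hpair_pow ha hb', FiniteField.pow_card_sub_one_eq_one a ha,
      FiniteField.pow_card_sub_one_eq_one b hb', hpair_one]
  obtain ⟨j, hj⟩ := exists_card_Ubar (F := F)
  have hco : Nat.Coprime (Nat.card ↥((sys F).Ubar)) (Fintype.card F - 1) := by
    rw [hj]
    refine Nat.Coprime.pow_left _ ?_
    have hq := Fintype.one_lt_card (α := F)
    rw [Nat.coprime_self_sub_right (by omega)]
    exact Nat.coprime_one_right _
  have h3 : hpair a b = 1 := by
    have := orderOf_dvd_of_pow_eq_one h1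
    have h4 := orderOf_dvd_of_pow_eq_one h2
    exact orderOf_eq_one_iff.1 (Nat.eq_one_of_dvd_one (hco.gcd_eq_one ▸ Nat.dvd_gcd this h4))
  rw [h3, mul_one]
  exact hu

theorem exists_monomial (hF : Odd (Fintype.card F)) {g : GL chevG2.Idx F} (hg : g * g = 1)
    {b v : GL chevG2.Idx F} {w : List (Fin chevG2.rank)} (hb : b ∈ (sys F).Bbar)
    (hv : v ∈ (sys F).US (invSet chevG2 w)) (e : g = b * (sys F).nW w * v) :
    ∃ c ∈ (sys F).Bbar, ∃ m ∈ (sys F).Nbar, c * g * c⁻¹ = m ∧ m * m = 1 ∧ (sys F).ConjP m w ∧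
      ∀ s < 12, act chevG2 w (act chevG2 w s) = s := by
  obtain ⟨len, hR⟩ := (rules F).root
  have hvB : v ∈ (sys F).Bbar :=
    (((sys F).US_mono fun r h => h.1).trans (sys F).Ubar_le_Bbar) hv
  set n := (sys F).nW w with hn
  obtain ⟨u, hu, h, hh, eb⟩ := ((sys F).mem_Bbar (rules F) hR).1 (mul_mem hvB hb)
  set m := h * n with hm
  have hg' : v * g * v⁻¹ = u * m := by
    rw [e, hm, ← mul_assoc u, ← eb]
    group
  have hsq : (u * m) * (u * m) = 1 := by
    rw [← hg', conj_mul, hg, mul_one, mul_inv_cancel]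
  -- the Weyl element is an involution
  have hk := (sys F).nW_reverse_mem (rules F) hR w
  have eN : (u * h) * n = (sys F).nW w.reverse * ((n * (sys F).nW w.reverse)⁻¹ * (u * h)⁻¹) := by
    have : u * m = (u * m)⁻¹ := eq_inv_of_mul_eq_one_left hsq
    rw [hm, ← mul_assoc] at this
    conv_lhs => rw [this]
    group
  have hact := (sys F).act_eq_of_bruhat (rules F) hR (eb ▸ mul_mem hvB hb)
    (mul_mem (inv_mem ((sys F).Hbar_le_Bbar hk)) (inv_mem (eb ▸ mul_mem hvB hb)))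
    (congrArg (sys F).θ eN)
  have hinv : ∀ s < 12, act chevG2 w (act chevG2 w s) = s := by
    intro s hs
    exact (congrArg (act chevG2 w) (hact s hs)).trans (hR.act_act_reverse w hs)
  have hnn : n * n ∈ (sys F).Hbar := by
    rw [hn, ← (sys F).nW_append]
    refine (sys F).nW_mem_Hbar_of_act (rules F) hR fun r hr => ?_
    rw [act_append, hinv r hr.1]
    exact hr
  have hz : m * m ∈ (sys F).Hbar := by
    have h1 := (sys F).nW_conj_Hbar (rules F) hR w hh
    have := mul_mem (mul_mem hh h1) hnn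
    rw [hm, show h * n * (h * n) = h * (n * h * n⁻¹) * (n * n) by group]
    exact this
  have hy : m * u * m⁻¹ = u⁻¹ * (m * m)⁻¹ := by
    have : u * (m * u * m⁻¹) * (m * m) = 1 := by rw [← hsq]; group
    calc m * u * m⁻¹ = u⁻¹ * (u * (m * u * m⁻¹) * (m * m)) * (m * m)⁻¹ := by group
      _ = _ := by rw [this, mul_one]
  have hyU : m * u * m⁻¹ ∈ (sys F).Ubar := by
    refine mem_Ubar_of_pow ?_ ?_
    · rw [hy]
      exact mul_mem (inv_mem ((sys F).Ubar_le_Bbar hu)) (inv_mem ((sys F).Hbar_le_Bbar hz))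
    · rw [conj_pow, pow_card_Ubar hu, mul_one, mul_inv_cancel]
  have hzz : m * m = 1 := by
    have h1 : (m * m)⁻¹ ∈ (sys F).Ubar ⊓ (sys F).Hbar := by
      refine Subgroup.mem_inf.2 ⟨?_, inv_mem hz⟩
      have := mul_mem hu hyU
      rwa [hy, mul_inv_cancel_left] at this
    rw [(sys F).Ubar_inf_Hbar (rules F) hR, Subgroup.mem_bot, inv_eq_one] at h1
    exact h1
  rw [hzz, inv_one, mul_one] at hy
  obtain ⟨j, hj⟩ := exists_card_Ubar (F := F)
  obtain ⟨l, hl⟩ : ∃ l, Nat.card ↥((sys F).Ubar) = 2 * l + 1 := by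
    rw [hj]; exact (hF.pow)
  set s := u ^ (l + 1) with hs
  have hs2 : s * s = u := by
    rw [hs, ← pow_add, show l + 1 + (l + 1) = Nat.card ↥((sys F).Ubar) + 1 by omega, pow_succ,
      pow_card_Ubar hu, one_mul]
  have hms : m * s * m⁻¹ = s⁻¹ := by rw [hs, ← conj_pow, hy, inv_pow]
  refine ⟨s⁻¹ * v, mul_mem (inv_mem (pow_mem ((sys F).Ubar_le_Bbar hu) _)) hvB, m,
    mul_mem ((sys F).Hbar_le_Nbar hh) ((sys F).nW_mem_Nbar w), ?_, hzz, ?_, hinv⟩
  · calc s⁻¹ * v * g * (s⁻¹ * v)⁻¹ = s⁻¹ * (v * g * v⁻¹) * s := by group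
      _ = s⁻¹ * (u * m) * s := by rw [hg']
      _ = s⁻¹ * ((s * s) * m) * s := by rw [hs2]
      _ = s * (m * s * m⁻¹) * m := by group
      _ = m := by rw [hms, mul_inv_cancel, one_mul]
  · rw [hm, hn]
    simpa using ((sys F).conjP_Hbar (rules F) hR hh).mul hR ((sys F).conjP_nW (rules F) hR w)

end Cfsg.Agent.G2Inv
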