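import Cfsg.Agent.G2Inv.Classes
import Mathlib.GroupTheory.NoncommCoprod

/-!
The two commuting `SL₂` subgroups centralizing the standard involution of `G₂(q)`.
-/

set_option autoImplicit false

namespace Cfsg.Agent.G2Inv

open Cfsg.Lie Cfsg.Agent.ChevGrp
open scoped MatrixGroups

variable {F : Type*} [Field F]

theorem two_ne_of_odd [Fintype F] (hF : Odd (Fintype.card F)) : (2 : F) ≠ 0 := fun h => by
  have hr : ringChar F = 2 := ((Nat.prime_dvd_prime_iff_eq (CharP.char_is_prime F (ringChar F))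
    Nat.prime_two).1 (ringChar.dvd (by simpa using h)))
  exact (Nat.not_even_iff_odd.2 hF) (Nat.even_iff.2 (FiniteField.even_card_of_char_two hr))

theorem upperT_val (t : F) : (upperT t : Matrix (Fin 2) (Fin 2) F) = !![1, t; 0, 1] := rfl
theorem lowerT_val (t : F) : (lowerT t : Matrix (Fin 2) (Fin 2) F) = !![1, 0; t, 1] := rfl

theorem sl_diag {g : SL(2, F)} (h1 : (g : Matrix (Fin 2) (Fin 2) F) 1 0 = 0)
    (h2 : (g : Matrix (Fin 2) (Fin 2) F) 0 1 = 0) :
    ∃ a : F, a ≠ 0 ∧ g = diaT a := by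
  have hd := g.det_coe
  rw [Matrix.det_fin_two, h1, mul_zero, sub_zero] at hd
  have ha : (g : Matrix (Fin 2) (Fin 2) F) 0 0 ≠ 0 := left_ne_zero_of_mul_eq_one hd
  refine ⟨_, ha, Subtype.ext ?_⟩
  rw [diaT_val ha]
  ext i j
  fin_cases i <;> fin_cases j <;> simp [h1, h2, eq_inv_of_mul_eq_one_right hd]

theorem sl_decomp (g : SL(2, F)) (hc : (g : Matrix (Fin 2) (Fin 2) F) 1 0 ≠ 0) :
    g = upperT ((g : Matrix (Fin 2) (Fin 2) F) 0 0 / (g : Matrix (Fin 2) (Fin 2) F) 1 0) *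
      monT (-((g : Matrix (Fin 2) (Fin 2) F) 1 0)⁻¹) *
      upperT ((g : Matrix (Fin 2) (Fin 2) F) 1 1 / (g : Matrix (Fin 2) (Fin 2) F) 1 0) := by
  have hd := g.det_coe
  rw [Matrix.det_fin_two] at hd
  refine Subtype.ext ?_
  rw [Matrix.SpecialLinearGroup.coe_mul, Matrix.SpecialLinearGroup.coe_mul, upperT_val, upperT_val,
    monT_val (neg_ne_zero.2 (inv_ne_zero hc))]
  ext i j
  fin_cases i <;> fin_cases j
  · simp [hc]
  · simp [hc]
    field_simp
    linear_combination -hd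
  · simp
  · simp [hc]
    field_simp

namespace RankOneHom

variable {r : ℕ} {φ : SL(2, F) →* GL chevG2.Idx F}

theorem injective (h2 : (2 : F) ≠ 0) (hφ : RankOneHom r φ) (hp : chevG2.IsPosRoot r)
    (hh : ∀ a : F, a ≠ 0 → ∃ b : F, b ≠ 0 ∧ (sys F).hEl r a = hpair a b) : Function.Injective φ := by
  obtain ⟨len, hR⟩ := (rules F).root
  have hxU : ∀ t : F, (sys F).x r t ∈ (sys F).Ubar := fun t => (sys F).x_mem_US hp t
  have hHU : ∀ g : GL chevG2.Idx F, g ∈ (sys F).Hbar → g ∈ (sys F).Ubar → g = 1 := by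
    intro g h1 h2
    have : g ∈ (sys F).Ubar ⊓ (sys F).Hbar := Subgroup.mem_inf.2 ⟨h2, h1⟩
    rwa [(sys F).Ubar_inf_Hbar (rules F) hR, Subgroup.mem_bot] at this
  refine (injective_iff_map_eq_one φ).2 fun g hg => ?_
  by_cases hc : (g : Matrix (Fin 2) (Fin 2) F) 1 0 = 0
  · have hd := g.det_coe
    rw [Matrix.det_fin_two, hc, mul_zero, sub_zero] at hd
    set a := (g : Matrix (Fin 2) (Fin 2) F) 0 0 with ha'
    have ha : a ≠ 0 := left_ne_zero_of_mul_eq_one hd
    set t := (g : Matrix (Fin 2) (Fin 2) F) 0 1 / a with ht'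
    have eg : g = diaT a * upperT t := by
      refine Subtype.ext ?_
      rw [Matrix.SpecialLinearGroup.coe_mul, diaT_val ha, upperT_val]
      ext i j
      fin_cases i <;> fin_cases j <;>
        simp [hc, ha', ht', eq_inv_of_mul_eq_one_right hd]
      field_simp
      exact (mul_div_cancel_right₀ _ ha).symm
    rw [eg, map_mul, hφ.dia, hφ.upper] at hg
    obtain ⟨b, hb, e⟩ := hh a ha
    rw [e] at hg
    have h1 : hpair a b = 1 := hHU _ (hpair_mem ha hb) (by
      rw [eq_inv_of_mul_eq_one_left hg]; exact inv_mem (hxU t))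
    rw [h1, one_mul, ← (sys F).x_zero hp.1] at hg
    obtain ⟨e1, -⟩ := hpair_inj ha hb one_ne_zero one_ne_zero (h1.trans hpair_one.symm)
    rw [eg, e1, x_param_inj hp.1 hg]
    refine Subtype.ext ?_
    rw [Matrix.SpecialLinearGroup.coe_mul, diaT_val one_ne_zero, upperT_val,
      Matrix.SpecialLinearGroup.coe_one]
    ext i j
    fin_cases i <;> fin_cases j <;> simp
  · exfalso
    set c := -((g : Matrix (Fin 2) (Fin 2) F) 1 0)⁻¹ with hc'
    have hc0 : c ≠ 0 := neg_ne_zero.2 (inv_ne_zero hc)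
    rw [sl_decomp g hc, map_mul, map_mul, hφ.mon, hφ.upper, hφ.upper] at hg
    have hU : (sys F).nEl r c ∈ (sys F).Ubar := by
      have := mul_mem (mul_mem (inv_mem (hxU ((g : Matrix (Fin 2) (Fin 2) F) 0 0 / (g : Matrix (Fin 2) (Fin 2) F) 1 0)))
        (one_mem (sys F).Ubar)) (inv_mem (hxU ((g : Matrix (Fin 2) (Fin 2) F) 1 1 / (g : Matrix (Fin 2) (Fin 2) F) 1 0)))
      rw [← hg] at this
      simpa [mul_assoc] using this
    have hN := (sys F).nEl_mem_Nbar (rules F) hR hp.1 hc0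
    have hH : (sys F).nEl r c ∈ (sys F).Hbar := by
      rw [← (sys F).Bbar_inf_Nbar (rules F) hR]
      exact Subgroup.mem_inf.2 ⟨(sys F).Ubar_le_Bbar hU, hN⟩
    have h1 := hHU _ hH hU
    have e : diaT (-1 : F) = monT c * monT c := Subtype.ext (by
      rw [Matrix.SpecialLinearGroup.coe_mul, monT_val hc0, diaT_val (neg_ne_zero.2 one_ne_zero)]
      simp [Matrix.mul_fin_two, hc0])
    have e2 := congrArg φ e
    rw [hφ.dia, map_mul, hφ.mon, h1, one_mul] at e2
    obtain ⟨b, hb, e3⟩ := hh (-1) (neg_ne_zero.2 one_ne_zero)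
    rw [e3, ← hpair_one] at e2
    exact h2 (by linear_combination -(hpair_inj (neg_ne_zero.2 one_ne_zero) hb one_ne_zero one_ne_zero e2).1)

/-- An element whose conjugation scales both root subgroups is diagonal. -/
theorem eq_diag (hinj : Function.Injective φ) (hφ : RankOneHom r φ) {A : SL(2, F)} {x y : F}
    (hx : x ≠ 0) (hy : y ≠ 0) (h1 : φ A * (sys F).x r 1 * (φ A)⁻¹ = (sys F).x r x)
    (h2 : φ A * (sys F).x (chevG2.neg r) 1 * (φ A)⁻¹ = (sys F).x (chevG2.neg r) y) :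
    ∃ a : F, a ≠ 0 ∧ A = diaT a := by
  have e1 : A * upperT 1 = upperT x * A := hinj (by
    rw [map_mul, map_mul, hφ.upper, hφ.upper, ← h1, inv_mul_cancel_right])
  have e2 : A * lowerT 1 = lowerT y * A := hinj (by
    rw [map_mul, map_mul, hφ.lower, hφ.lower, ← h2, inv_mul_cancel_right])
  have e1' := congrArg (fun g : SL(2, F) => (g : Matrix (Fin 2) (Fin 2) F) 0 0) e1
  have e2' := congrArg (fun g : SL(2, F) => (g : Matrix (Fin 2) (Fin 2) F) 1 1) e2
  simp only [Matrix.SpecialLinearGroup.coe_mul, upperT_val, lowerT_val, Matrix.mul_apply,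
    Fin.sum_univ_two, Matrix.of_apply, Matrix.cons_val', Matrix.cons_val_zero, Matrix.cons_val_one,
    Matrix.cons_val_fin_one, mul_one, one_mul, mul_zero, zero_mul, add_zero, zero_add] at e1' e2'
  refine sl_diag ?_ ?_
  · exact (mul_eq_zero.1 (show x * (A : Matrix (Fin 2) (Fin 2) F) 1 0 = 0 by linear_combination -e1')).resolve_left hx
  · exact (mul_eq_zero.1 (show y * (A : Matrix (Fin 2) (Fin 2) F) 0 1 = 0 by linear_combination -e2')).resolve_left hy

end RankOneHom

theorem isPos_seven : chevG2.IsPosRoot 7 := by decide +kernel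
theorem isPos_eleven : chevG2.IsPosRoot 11 := by decide +kernel
theorem neg_seven : chevG2.neg 7 = 4 := by decide +kernel
theorem neg_eleven : chevG2.neg 11 = 0 := by decide +kernel

theorem hEl_seven (a : F) : (sys F).hEl 7 a = hpair a 1 := by
  rw [← hEl_zero, simple_zero]

theorem conjP_ten : (sys F).ConjP ((sys F).nW [i1, i0]) [i1, i0] := by
  obtain ⟨len, hR⟩ := (rules F).root
  exact (sys F).conjP_nW (rules F) hR _

theorem exists_scale : ∃ l : F, l ≠ 0 ∧ ∀ t : F,
    (sys F).nW [i1, i0] * (sys F).nEl 6 t * ((sys F).nW [i1, i0])⁻¹ = (sys F).nEl 11 (l * t) := by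
  obtain ⟨len, hR⟩ := (rules F).root
  obtain ⟨c, hc, hgc⟩ := conjP_ten (F := F)
  refine ⟨c 6, right_ne_zero_of_mul_eq_one (hc 6 (by decide)), fun t => ?_⟩
  have := Sys.ConjP.nEl hR hc hgc (r := 6) (by decide) t
  rwa [show act chevG2 [i1, i0] 6 = 11 by decide +kernel] at this

theorem hEl_eleven {a : F} (ha : a ≠ 0) : (sys F).hEl 11 a = hpair a (a ^ 2) := by
  obtain ⟨len, hR⟩ := (rules F).root
  obtain ⟨φ, hφ⟩ := exists_rankOneHom F (r := 11) (by decide)
  obtain ⟨φ6, hφ6⟩ := exists_rankOneHom F (r := 6) (by decide)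
  obtain ⟨l, hl, hgl⟩ := exists_scale (F := F)
  have e1 : (sys F).nW [i1, i0] * hpair 1 a * ((sys F).nW [i1, i0])⁻¹ = hpair a (a ^ 2) := by
    rw [Sys.nW_cons, Sys.nW_singleton,
      show (sys F).nI i1 * (sys F).nI i0 * hpair 1 a * ((sys F).nI i1 * (sys F).nI i0)⁻¹ =
        (sys F).nI i1 * ((sys F).nI i0 * hpair 1 a * ((sys F).nI i0)⁻¹) * ((sys F).nI i1)⁻¹ by group,
      nI_zero_hpair one_ne_zero ha, div_one, nI_one_hpair ha ha, pow_succ, mul_div_cancel_right₀ _ ha]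
  rw [← e1, ← hEl_oneIdx, simple_one, Sys.hEl, Sys.hEl,
    show (sys F).nW [i1, i0] * ((sys F).nEl 6 a * (sys F).nEl 6 (-1)) * ((sys F).nW [i1, i0])⁻¹ =
      ((sys F).nW [i1, i0] * (sys F).nEl 6 a * ((sys F).nW [i1, i0])⁻¹) *
      ((sys F).nW [i1, i0] * (sys F).nEl 6 (-1) * ((sys F).nW [i1, i0])⁻¹) by group, hgl, hgl,
    ← hφ.mon, ← hφ.mon, ← hφ.mon, ← hφ.mon, ← map_mul, ← map_mul]
  congr 1
  refine Subtype.ext ?_
  rw [Matrix.SpecialLinearGroup.coe_mul, Matrix.SpecialLinearGroup.coe_mul, monT_val ha,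
    monT_val (neg_ne_zero.2 one_ne_zero), monT_val (mul_ne_zero hl ha),
    monT_val (mul_ne_zero hl (neg_ne_zero.2 one_ne_zero))]
  simp [Matrix.mul_fin_two]
  constructor <;> field_simp

/-- The pair of rank one homomorphisms at a short root and the orthogonal long root. -/
structure RootPair (φ ψ : SL(2, F) →* GL chevG2.Idx F) : Prop where
  short : RankOneHom 7 φ
  long : RankOneHom 11 ψ
  short_inj : Function.Injective φ
  long_inj : Function.Injective ψ

theorem exists_rootPair (h2 : (2 : F) ≠ 0) : ∃ φ ψ : SL(2, F) →* GL chevG2.Idx F, RootPair φ ψ := by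
  obtain ⟨φ, hφ⟩ := exists_rankOneHom F (r := 7) (by decide)
  obtain ⟨ψ, hψ⟩ := exists_rankOneHom F (r := 11) (by decide)
  exact ⟨φ, ψ, hφ, hψ, hφ.injective h2 isPos_seven fun a _ => ⟨1, one_ne_zero, hEl_seven a⟩,
    hψ.injective h2 isPos_eleven fun a ha => ⟨a ^ 2, pow_ne_zero 2 ha, hEl_eleven ha⟩⟩

namespace RootPair

variable {φ ψ : SL(2, F) →* GL chevG2.Idx F}

theorem comm_roots : ∀ r ∈ [7, 4], ∀ s ∈ [11, 0],
    chevG2.commTerms r s = [] ∧ s ≠ r ∧ s ≠ chevG2.neg r := by decide +kernel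

theorem commute (P : RootPair φ ψ) (A B : SL(2, F)) : Commute (φ A) (ψ B) := by
  obtain ⟨len, hR⟩ := (rules F).root
  have hgen : ∀ r ∈ [7, 4], ∀ s ∈ [11, 0], ∀ t u : F, Commute ((sys F).x r t) ((sys F).x s u) := by
    intro r hr s hs t u
    obtain ⟨e, h1, h2⟩ := comm_roots r hr s hs
    have hr12 : ∀ n ∈ [7, 4, 11, 0], n < chevG2.nroots := by decide
    have hr' : r < chevG2.nroots := hr12 r (by simp at hr ⊢; omega)
    have hs' : s < chevG2.nroots := hr12 s (by simp at hs ⊢; omega)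
    have := (sys F).comm r hr' s hs' h1 h2 t u
    rw [ChevalleyDatum.commWord, e, List.map_nil, List.map_nil, List.prod_nil, mul_one] at this
    exact this.symm
  have hA : φ A ∈ (sys F).US {7} ⊔ (sys F).US {4} := by
    rw [← neg_seven, ← P.short.range]; exact ⟨A, rfl⟩
  have hB : ψ B ∈ (sys F).US {11} ⊔ (sys F).US {0} := by
    rw [← neg_eleven, ← P.long.range]; exact ⟨B, rfl⟩
  have h1 : ∀ r ∈ [7, 4], (sys F).US {r} ≤ Subgroup.centralizer (((sys F).US {11} ⊔ (sys F).US {0} :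
      Subgroup (GL chevG2.Idx F)) : Set (GL chevG2.Idx F)) := by
    intro r hr
    conv_lhs => rw [Sys.US]
    rw [Subgroup.closure_le]
    rintro _ ⟨r', rfl, t, rfl⟩
    rw [SetLike.mem_coe, Subgroup.mem_centralizer_iff]
    intro g hg
    have h3 : ∀ s ∈ [11, 0], (sys F).US {s} ≤ Subgroup.centralizer {(sys F).x r' t} := by
      intro s hs
      conv_lhs => rw [Sys.US]
      rw [Subgroup.closure_le]
      rintro _ ⟨s', rfl, u, rfl⟩
      exact Subgroup.mem_centralizer_singleton_iff.2 (hgen r' hr s' hs t u).eq.symm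
    exact Subgroup.mem_centralizer_singleton_iff.1
      ((sup_le (h3 11 (by simp)) (h3 0 (by simp))) hg)
  exact ((Subgroup.mem_centralizer_iff.1 ((sup_le (h1 7 (by simp)) (h1 4 (by simp))) hA)) _ hB).symm

end RootPair

end Cfsg.Agent.G2Inv
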