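import Cfsg.Agent.G2Inv.Normal

/-!
Monomial involutions over a reflection, and the involutions of the diagonal subgroup.
-/

set_option autoImplicit false

namespace Cfsg.Agent.G2Inv

open Cfsg.Lie Cfsg.Agent.ChevGrp
open scoped MatrixGroups

variable {F : Type*} [Field F]

/-- The standard involution. -/
noncomputable def zEl (F : Type*) [Field F] : GL chevG2.Idx F := hpair (-1) 1

theorem x_mem_Gbar {r : ℕ} (hr : r < 12) (t : F) : (sys F).x r t ∈ (sys F).Gbar :=
  Subgroup.subset_closure ⟨r, hr, t, rfl⟩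

theorem nI_mem_Gbar (i : Fin chevG2.rank) : (sys F).nI i ∈ (sys F).Gbar := by
  obtain ⟨len, hR⟩ := (rules F).root
  rw [(sys F).Gbar_eq hR (rules F)]
  exact Subgroup.mem_sup_right ((sys F).nI_mem_Nbar i)

theorem hEl_zero (a : F) : (sys F).hEl (chevG2.simple i0) a = hpair a 1 := by
  obtain ⟨len, hR⟩ := (rules F).root
  rw [hpair, (sys F).hEl_one hR (hR.simple_lt _ i1.2), mul_one]

theorem hEl_oneIdx (a : F) : (sys F).hEl (chevG2.simple i1) a = hpair 1 a := by
  obtain ⟨len, hR⟩ := (rules F).root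
  rw [hpair, (sys F).hEl_one hR (hR.simple_lt _ i0.2), one_mul]

theorem cartan_values :
    chevG2.cartan 0 4 = -2 ∧ chevG2.cartan 1 4 = 1 ∧ chevG2.cartan 0 10 = 3 ∧ chevG2.cartan 1 10 = -1 ∧
    chevG2.cartan 0 8 = -1 ∧ chevG2.cartan 1 8 = 1 ∧ chevG2.cartan 0 5 = 3 ∧ chevG2.cartan 1 5 = -2 := by
  decide +kernel

theorem nI_zero_hpair {a b : F} (ha : a ≠ 0) (hb : b ≠ 0) :
    (sys F).nI i0 * hpair a b * ((sys F).nI i0)⁻¹ = hpair (b / a) b := by
  obtain ⟨len, hR⟩ := (rules F).root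
  obtain ⟨c1, c2, c3, c4, -, -, -, -⟩ := cartan_values
  refine conj_hpair ((sys F).nI_mem_Nbar i0) ((sys F).conjP_nI (rules F) hR i0) ha hb (div_ne_zero hb ha)
    hb (p := 4) (q := 10) (by norm_num) (by norm_num) (by decide +kernel) (by decide +kernel) ?_ ?_
  · rw [chi_seven, chi, c1, c2, zpow_one, zpow_neg, zpow_ofNat]
    field_simp
  · rw [chi_six, chi, c3, c4, zpow_ofNat, zpow_neg_one]
    field_simp

theorem nI_one_hpair {a b : F} (ha : a ≠ 0) (hb : b ≠ 0) :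
    (sys F).nI i1 * hpair a b * ((sys F).nI i1)⁻¹ = hpair a (a ^ 3 / b) := by
  obtain ⟨len, hR⟩ := (rules F).root
  obtain ⟨-, -, -, -, c1, c2, c3, c4⟩ := cartan_values
  refine conj_hpair ((sys F).nI_mem_Nbar i1) ((sys F).conjP_nI (rules F) hR i1) ha hb ha
    (div_ne_zero (pow_ne_zero _ ha) hb) (p := 8) (q := 5) (by norm_num) (by norm_num) (by decide +kernel)
    (by decide +kernel) ?_ ?_
  · rw [chi_seven, chi, c1, c2, zpow_one, zpow_neg_one]
    field_simp
  · rw [chi_six, chi, c3, c4, zpow_ofNat, zpow_neg, zpow_ofNat]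
    field_simp

theorem diagonal_involution {h : GL chevG2.Idx F} (hh : h ∈ (sys F).Hbar) (h1 : h ≠ 1) (h2 : h * h = 1) :
    ∃ c ∈ (sys F).Gbar, c * h * c⁻¹ = zEl F := by
  obtain ⟨a, b, ha, hb, rfl⟩ := exists_hpair hh
  rw [hpair_mul ha hb ha hb, ← hpair_one] at h2
  obtain ⟨ea, eb⟩ := hpair_inj (mul_ne_zero ha ha) (mul_ne_zero hb hb) one_ne_zero one_ne_zero h2
  have hm : (-1 : F) ≠ 0 := neg_ne_zero.2 one_ne_zero
  have e2 : (sys F).nI i1 * hpair (-1 : F) (-1) * ((sys F).nI i1)⁻¹ = zEl F := by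
    rw [nI_one_hpair hm hm, zEl]
    norm_num
  have e1 : (sys F).nI i0 * hpair (1 : F) (-1) * ((sys F).nI i0)⁻¹ = hpair (-1 : F) (-1) := by
    rw [nI_zero_hpair one_ne_zero hm]
    norm_num
  rcases mul_self_eq_one_iff.1 ea with rfl | rfl <;> rcases mul_self_eq_one_iff.1 eb with rfl | rfl
  · exact absurd hpair_one h1
  · refine ⟨(sys F).nI i1 * (sys F).nI i0, mul_mem (nI_mem_Gbar i1) (nI_mem_Gbar i0), ?_⟩
    rw [show (sys F).nI i1 * (sys F).nI i0 * hpair 1 (-1) * ((sys F).nI i1 * (sys F).nI i0)⁻¹ =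
      (sys F).nI i1 * ((sys F).nI i0 * hpair 1 (-1) * ((sys F).nI i0)⁻¹) * ((sys F).nI i1)⁻¹ by group,
      e1, e2]
  · exact ⟨1, one_mem _, by simp [zEl]⟩
  · exact ⟨(sys F).nI i1, nI_mem_Gbar i1, e2⟩

theorem reflection_to_borel {m : GL chevG2.Idx F} (hm : m ∈ (sys F).Nbar) {i : Fin chevG2.rank}
    (hc : (sys F).ConjP m [i]) (h2 : m * m = 1) :
    ∃ c ∈ (sys F).Gbar, c * m * c⁻¹ ∈ (sys F).Bbar := by
  obtain ⟨len, hR⟩ := (rules F).root
  obtain ⟨k, hk, e⟩ := eq_of_act hm hc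
  rw [Sys.nW_singleton] at e
  obtain ⟨a, b, ha, hb, rfl⟩ := exists_hpair hk
  obtain ⟨φ, hφ⟩ := exists_rankOneHom F (hR.simple_lt i i.2)
  set n := (sys F).nI i with hn
  have hsq : hpair a b * (n * hpair a b * n⁻¹) * (n * n) = 1 := by
    rw [← h2, e]; group
  have hnn : n * n = (sys F).hEl (chevG2.simple i) (-1) := hφ.nEl_sq
  -- the general step, once the character at the root is known
  have main : ∀ (c : F), c ≠ 0 → chi a b (chevG2.simple i) = -(c ^ 2) →
      (∃ w ∈ (sys F).Gbar, w * m * w⁻¹ ∈ (sys F).Bbar) := by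
    intro c hc0 hchi
    refine ⟨(sys F).x (chevG2.neg (chevG2.simple i)) (-c⁻¹),
      x_mem_Gbar (hR.neg_lt _ (hR.simple_lt i i.2)) _, ?_⟩
    have hlow : m * (sys F).x (chevG2.neg (chevG2.simple i)) c⁻¹ * m⁻¹ =
        (sys F).x (chevG2.simple i) c := by
      rw [e, mul_inv_rev, show hpair a b * n * (sys F).x (chevG2.neg (chevG2.simple i)) c⁻¹ *
        (n⁻¹ * (hpair a b)⁻¹) = hpair a b * (n * (sys F).x (chevG2.neg (chevG2.simple i)) c⁻¹ * n⁻¹) *
        (hpair a b)⁻¹ by group, hn, Sys.nI, hφ.conj_lower, hpair_conj ha hb (hR.simple_lt i i.2), hchi]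
      congr 1
      field_simp
    rw [(sys F).x_inv (hR.neg_lt _ (hR.simple_lt i i.2)), neg_neg,
      show (sys F).x (chevG2.neg (chevG2.simple i)) (-c⁻¹) * m *
        (sys F).x (chevG2.neg (chevG2.simple i)) c⁻¹ = (sys F).x (chevG2.neg (chevG2.simple i)) (-c⁻¹) *
        (m * (sys F).x (chevG2.neg (chevG2.simple i)) c⁻¹ * m⁻¹) * m by group, hlow]
    have hn2 : (sys F).x (chevG2.neg (chevG2.simple i)) (-c⁻¹) * (sys F).x (chevG2.simple i) c =
        (sys F).x (chevG2.simple i) (-c) * (sys F).nEl (chevG2.simple i) c := by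
      rw [Sys.nEl, ← (sys F).x_inv (hR.simple_lt i i.2)]
      group
    rw [hn2]
    have hmem : (sys F).nEl (chevG2.simple i) c * m ∈ (sys F).Hbar := by
      have e1 : (sys F).nEl (chevG2.simple i) c = (sys F).hEl (chevG2.simple i) c * n := by
        rw [Sys.hEl, hn, Sys.nI, ← (sys F).nEl_inv hR (hR.simple_lt i i.2) 1]
        group
      rw [e1, e, show (sys F).hEl (chevG2.simple i) c * n * (hpair a b * n) =
        (sys F).hEl (chevG2.simple i) c * ((n * hpair a b * n⁻¹) * (n * n)) by group]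
      exact mul_mem ((sys F).hEl_simple_mem i hc0)
        (mul_mem ((sys F).nI_conj_Hbar (rules F) hR i (hpair_mem ha hb))
          ((sys F).nI_sq_mem hR i))
    rw [mul_assoc]
    exact mul_mem ((sys F).Ubar_le_Bbar ((sys F).x_mem_US (hR.simple_pos i) _))
      ((sys F).Hbar_le_Bbar hmem)
  obtain rfl | rfl : i = i0 ∨ i = i1 := by
    have hj2 : (i : ℕ) < 2 := i.2
    rcases Nat.lt_or_ge (i : ℕ) 1 with h | h
    · exact Or.inl (Fin.ext (show (i : ℕ) = 0 by omega))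
    · exact Or.inr (Fin.ext (show (i : ℕ) = 1 by omega))
  · rw [hn, nI_zero_hpair ha hb, ← hn, hnn, hEl_zero,
      hpair_mul ha hb (div_ne_zero hb ha) hb,
      hpair_mul (mul_ne_zero ha (div_ne_zero hb ha)) (mul_ne_zero hb hb) (neg_ne_zero.2 one_ne_zero)
        one_ne_zero, ← hpair_one] at hsq
    obtain ⟨e1, -⟩ := hpair_inj (mul_ne_zero (mul_ne_zero ha (div_ne_zero hb ha))
      (neg_ne_zero.2 one_ne_zero)) (mul_ne_zero (mul_ne_zero hb hb) one_ne_zero) one_ne_zero one_ne_zero hsq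
    field_simp at e1
    refine main a ha ?_
    rw [simple_zero, chi_seven,
      show b = -1 by linear_combination -e1, inv_neg, inv_one, mul_neg_one]
  · rw [hn, nI_one_hpair ha hb, ← hn, hnn, hEl_oneIdx,
      hpair_mul ha hb ha (div_ne_zero (pow_ne_zero _ ha) hb),
      hpair_mul (mul_ne_zero ha ha) (mul_ne_zero hb (div_ne_zero (pow_ne_zero _ ha) hb)) one_ne_zero
        (neg_ne_zero.2 one_ne_zero), ← hpair_one] at hsq
    obtain ⟨-, e2⟩ := hpair_inj (mul_ne_zero (mul_ne_zero ha ha) one_ne_zero)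
      (mul_ne_zero (mul_ne_zero hb (div_ne_zero (pow_ne_zero _ ha) hb)) (neg_ne_zero.2 one_ne_zero))
      one_ne_zero one_ne_zero hsq
    field_simp at e2
    refine main b hb ?_
    rw [simple_one, chi_six,
      show a ^ 3 = -1 by linear_combination -e2, inv_neg, inv_one, neg_one_mul]

end Cfsg.Agent.G2Inv
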